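import Cfsg.Agent.Blk.SubBound
import Cfsg.Agent.Blk.LocBlock
import Cfsg.Agent.Blk.SubIdem
import Cfsg.Agent.Mod.Star

/-!
# Heights, the centre of a defect group and the inertial index
-/

set_option autoImplicit false
set_option linter.unusedSectionVars false
set_option linter.style.haveILetI false

namespace Cfsg

open MonoidAlgebra GA
open scoped ComplexConjugate Classical

universe u v w

variable {G : Type u} [Group G] [Finite G] {p : ℕ} [Fact p.Prime] {M : Ideal AlgInt}

local notation "C₁(" u ")" => Subgroup.centralizer ({u} : Set _)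
local notation "C(" Q ")" => Subgroup.centralizer ((Q : Subgroup _) : Set _)
local notation "N(" Q ")" => Subgroup.normalizer ((Q : Subgroup _) : Set _)

section GA

variable {k : Type w} [Field k] [CharP k p] {P : Subgroup G} {b e : k[G]}

theorem GA.IsBlockIdem.isBPair_of_sup (he : IsBlockIdem (P ⊔ C(P)) e) (hP : IsPGroup p P) :
    IsBPair p P e := by
  have h1 : Br P e = e := Br_eq_self_of_normal hP le_sup_left
    (sup_le Subgroup.le_normalizer (centralizer_le_normalizer' P)) le_rfl he.mem he.idem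
  have h2 : Zalg k C(P) C(P) = Zalg k C(P) (P ⊔ C(P)) := by
    ext a
    simp only [mem_Zalg]
    refine and_congr_right fun ha => ⟨fun h => ?_, fun h => fixedBy_anti le_sup_right h⟩
    exact mem_fixedBy_sup.2 ⟨suppIn_centralizer_le_fixedBy _ ha, h⟩
  refine ⟨hP, ?_⟩
  unfold IsBlockIdem
  rw [h2]
  exact he.of_le (Zalg_mono le_sup_right le_rfl) ⟨h1 ▸ Br_mem_suppIn _ _, he.mem.2⟩

theorem le_centralizer_zpowers_of_mem_center {z : P} (hz : z ∈ Subgroup.center P) :
    P ≤ C(Subgroup.zpowers (z : G)) := by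
  rw [centralizer_zpowers_eq]
  intro x hx
  rw [Subgroup.mem_centralizer_singleton_iff]
  exact congrArg Subtype.val (Subgroup.mem_center_iff.1 hz ⟨x, hx⟩)

theorem GA.IsMaxPair.mem_fClass_iff_of_center (hP : IsMaxPair p b P e) {u v : P}
    (hu : u ∈ Subgroup.center P) (hv : v ∈ Subgroup.center P) :
    v ∈ fClass p P e u ↔ ∃ g ∈ N(P) ⊓ cjStab e, (v : G) = g * u * g⁻¹ := by
  refine ⟨fun ⟨g, h1, h2⟩ => ?_, fun ⟨g, h1, h2⟩ => hP.pair.mem_fClass_of_mem_stab h1 h2⟩
  obtain ⟨c, hc, h3⟩ := hP.exists_mul_mem_stab h1 (le_centralizer_zpowers_of_mem_center hu)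
    (by rw [cjS_zpowers, ← h2]; exact le_centralizer_zpowers_of_mem_center hv)
  refine ⟨_, h3, ?_⟩
  have := mem_centralizer_sub_conj'.1 hc _ (conj_mem_cjS.2 (Subgroup.mem_zpowers (u : G)))
  rw [h2, ← this]; group

theorem GA.IsMaxPair.card_center_fClass_le [Fintype P] (hP : IsMaxPair p b P e) (u : P) :
    (Finset.univ.filter fun z : P => z ∈ Subgroup.center P ∧ u ∈ fClass p P e z).card ≤
      (P ⊔ C(P)).relIndex (N(P) ⊓ cjStab e) := by
  set S := Finset.univ.filter fun z : P => z ∈ Subgroup.center P ∧ u ∈ fClass p P e z with hS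
  rcases S.eq_empty_or_nonempty with h | ⟨z, hz⟩
  · simp [h]
  set T := N(P) ⊓ cjStab e with hT
  letI := Fintype.ofFinite (T ⧸ (P ⊔ C(P)).subgroupOf T)
  rw [Subgroup.relIndex, Subgroup.index, Nat.card_eq_fintype_card, ← Finset.card_univ,
    ← Finset.card_image_of_injective S Subtype.val_injective]
  refine (Finset.card_le_card (t := Finset.univ.image fun q : T ⧸ (P ⊔ C(P)).subgroupOf T =>
    (q.out : G) * z * (q.out : G)⁻¹) ?_).trans Finset.card_image_le
  intro x hx
  obtain ⟨v, hv, rfl⟩ := Finset.mem_image.1 hx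
  simp only [hS, Finset.mem_filter, Finset.mem_univ, true_and] at hz hv
  obtain ⟨g, hg, h1⟩ := (hP.mem_fClass_iff_of_center hz.1 hv.1).1
    (hP.pair.mem_fClass_trans hz.2 (mem_fClass_symm hv.2))
  refine Finset.mem_image.2 ⟨((⟨g, hg⟩ : T) : T ⧸ _), Finset.mem_univ _, ?_⟩
  obtain ⟨h, hh⟩ := QuotientGroup.mk_out_eq_mul ((P ⊔ C(P)).subgroupOf T) ⟨g, hg⟩
  have h2 : (P ⊔ C(P) : Subgroup G) ≤ C(Subgroup.zpowers (z : G)) :=
    sup_le (le_centralizer_zpowers_of_mem_center hz.1) (centralizer_anti (by simp))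
  have h3 : ((h : T) : G) * z * ((h : T) : G)⁻¹ = z :=
    mem_centralizer_sub_conj'.1 (h2 h.2) _ (Subgroup.mem_zpowers (z : G))
  rw [hh, h1]
  simp only [Subgroup.coe_mul, mul_inv_rev]
  conv_rhs => rw [← h3]
  group

end GA

variable {B : Set (IrrCharacter G)} {P : Subgroup G} {e : (ResK M)[G]}

/-- `p^{h(χ)} |Z(P)| ≤ |P| e`. -/
theorem IsPModular.card_center_mul_pow_le (hM : IsPModular p M) (hB : IsPBlock M B)
    (hP : haveI := hM.charP; IsMaxPair p (blockIdem M B) P e) {χ : IrrCharacter G} (hχ : χ ∈ B) :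
    Nat.card (Subgroup.center P) * p ^ blockHeight p B χ.1 ≤
      p ^ blockDefect p B * (P ⊔ C(P)).relIndex (N(P) ⊓ cjStab e) := by
  haveI := hM.charP
  letI := Fintype.ofFinite P
  have hp : p.Prime := Fact.out
  obtain ⟨b, hb⟩ := hM.exists_localBlocks hP
  have hg := χ.isCharacter.isGen
  have hs : ∀ u : P, IsSec p (C₁((u : G))).subtype (u : G) := fun u =>
    isSec_centralizer (isPElt_of_mem hP.pair.isPGroup u.2)
  set c : P → ℂ := fun u => contrib p (C₁((u : G))).subtype u (b u) χ.1 χ.1 with hc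
  have hc' : ∀ u : P, ip (starC p M P e χ.1 ((fClass p P e u).indicator 1)) χ.1 = c u := fun u => by
    rw [hM.starC_indicator hP (hs u) (hb u).1 (hb u).2 χ.isClassFunction,
      ip_subG _ _ _ _ χ.isClassFunction]
  have hre : ∀ u, 0 ≤ (c u).re := fun u =>
    (hs u).contrib_self_re_nonneg hM (hb u).1 χ.isClassFunction
  have hcr : ∀ u, c u = ((c u).re : ℂ) := fun u =>
    Complex.ext (by simp) (by simpa using (hs u).contrib_self_im hM (hb u).1 χ.isClassFunction)
  set S := Finset.univ.filter fun z : P => z ∈ Subgroup.center P with hS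
  set E := (P ⊔ C(P)).relIndex (N(P) ⊓ cjStab e) with hE
  have h1 : ∑ u : P, ((fClass p P e u).ncard : ℝ)⁻¹ * (c u).re = 1 := by
    have := hM.ip_starC_eq_sum hP hb isFStable_one χ.isClassFunction χ.isClassFunction
    rw [hM.starC_one hB hP χ.isClassFunction, blockPart_irr_of_mem hχ, χ.ip_self] at this
    apply Complex.ofReal_injective
    push_cast
    rw [this]
    exact Finset.sum_congr rfl fun u _ => by rw [← hcr u]; simp [hc]
  have h2 : ∑ z ∈ S, (c z).re ≤ E := by
    have := hM.ip_starC_eq_sum hP hb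
      (IsFStable.sum (s := S) fun z _ => hP.pair.isFStable_indicator z) χ.isClassFunction
      χ.isClassFunction
    rw [starC_sum_right, ip_sum_left] at this
    simp only [hc'] at this
    have h3 : ∑ z ∈ S, (c z).re = ∑ u : P, ((Finset.univ.filter fun z : P =>
        z ∈ Subgroup.center P ∧ u ∈ fClass p P e z).card : ℝ) *
        (((fClass p P e u).ncard : ℝ)⁻¹ * (c u).re) := by
      apply Complex.ofReal_injective
      push_cast
      simp only [← hcr]
      rw [this]
      refine Finset.sum_congr rfl fun u _ => ?_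
      rw [Finset.sum_apply, div_eq_mul_inv, mul_assoc]
      congr 1
      simp only [Set.indicator_apply, Pi.one_apply, Finset.sum_boole, hS, Finset.filter_filter]
    rw [h3, ← mul_one (E : ℝ), ← h1, Finset.mul_sum]
    exact Finset.sum_le_sum fun u _ => mul_le_mul_of_nonneg_right
      (by exact_mod_cast hP.card_center_fClass_le u) (mul_nonneg (by positivity) (hre u))
  have hloc : ∀ u : P, IsLoc p M P e (Subgroup.zpowers (u : G)) (C₁((u : G))).subtype (b u) :=
    fun u => (hs u).isLoc (hb u).1 (hb u).2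
  have hd : ∀ z ∈ S, blockDefect p (b z) = blockDefect p B := fun z hz =>
    (hloc z).blockDefect_eq_of_le hM hB hP
      (le_centralizer_zpowers_of_mem_center (by simpa [hS] using hz))
  have h4 := hM.card_mul_le_sum_norm S (fun z => (p : ℂ) ^ blockDefect p B * c z)
    (fun z hz => hd z hz ▸ (hs z).isIntegral_pow_mul_contrib hg hg)
    (fun z hz => mul_ne_zero (pow_ne_zero _ (Nat.cast_ne_zero.2 hp.ne_zero))
      (mt ((hs z).contrib_self_eq_zero_iff hM (hb z).1 χ.isClassFunction).1
        ((hs z).subPart_ne_zero_of_major hM (hM.induces_of_bpLe hB hP (hs z) (hb z).1 (hb z).2)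
          (hd z hz) hχ)))
    (fun σ => ?_) (h := blockHeight p B χ.1)
    (fun z hz => (hs z).vM_contrib_le hM (hb z).1 hχ hg)
  · have h5 : ∑ z ∈ S, ‖(p : ℂ) ^ blockDefect p B * c z‖ =
        (p : ℝ) ^ blockDefect p B * ∑ z ∈ S, (c z).re := by
      rw [Finset.mul_sum]
      refine Finset.sum_congr rfl fun z _ => ?_
      rw [norm_mul, norm_pow, Complex.norm_natCast, hcr z, Complex.norm_real,
        Real.norm_of_nonneg (hre z), Complex.ofReal_re]
    have h6 : Nat.card (Subgroup.center P) = S.card := by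
      rw [Nat.card_eq_fintype_card, Fintype.card_subtype]
    rw [h5] at h4
    rw [h6]
    exact_mod_cast h4.trans (mul_le_mul_of_nonneg_left h2 (by positivity))
  · obtain ⟨k, hk, hσ⟩ := ringHom_exists_pow (σ : ℂ →+* ℂ) (n := p * Nat.card P)
      (mul_ne_zero hp.ne_zero Nat.card_pos.ne')
    have hk1 : ¬ p ∣ k := (hp.coprime_iff_not_dvd).1 (Nat.Coprime.coprime_mul_right_right hk).symm
    have hk2 : (Nat.card P).Coprime k := (Nat.Coprime.coprime_mul_left_right hk).symm
    refine ⟨fun z => z ^ k, (powCoprime hk2).injective.injOn, fun z hz => ⟨?_, ?_⟩⟩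
    · simp only [hS, Finset.mem_filter, Finset.mem_univ, true_and] at hz ⊢
      exact pow_mem hz k
    · have h7 : Subgroup.zpowers ((z ^ k : P) : G) = Subgroup.zpowers (z : G) := by
        rw [Subgroup.coe_pow]
        refine le_antisymm (by simp) ?_
        obtain ⟨m, hm⟩ := exists_pow_eq_self_of_coprime (x := (z : G)) (hk2.coprime_dvd_left
          (by rw [Subgroup.orderOf_coe]; exact orderOf_dvd_natCard z)).symm
        rw [Subgroup.zpowers_le]
        exact ⟨m, by simpa using hm⟩
      rw [map_mul, map_pow, map_natCast, ← hc' (z ^ k),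
        hM.starC_indicator hP ((hs z).pow hk1) (hb z).1 (h7 ▸ (hb z).2) χ.isClassFunction,
        ip_subG _ _ _ _ χ.isClassFunction]
      congr 1
      refine (hs z).ringHom_contrib hg hg (σ : ℂ →+* ℂ) hk1 fun ζ hζ => hσ ζ ?_
      obtain ⟨m, hm⟩ : orderOf (z : G) ∣ p * Nat.card P := by
        rw [Subgroup.orderOf_coe]; exact (orderOf_dvd_natCard z).mul_left _
      rw [hm, pow_mul, hζ, one_pow]

end Cfsg
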