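import Cfsg.Agent.Blk.Perfect
import Cfsg.Agent.Mod.Dade
import Cfsg.Agent.Char.GlaubInv
import Cfsg.Agent.Char.Cover

/-!
# The perfect isometry above the Glauberman correspondence (abelian `p`-group)
-/

set_option autoImplicit false
set_option linter.unusedSectionVars false
set_option linter.unusedVariables false

namespace Cfsg

open scoped ComplexConjugate

universe u v w w'

variable {p : ℕ} [hp : Fact p.Prime] {M : Ideal AlgInt}

section Grp
variable {E G Q D : Type*} [Group E] [Finite E] [Group G] [Finite G] [Group Q] [Finite Q] [Group D]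

theorem not_dvd_card_of_forall_isPRegular {K : Subgroup E} (h : ∀ x ∈ K, IsPRegular p x) :
    ¬ p ∣ Nat.card K := fun hd => by
  obtain ⟨x, hx⟩ := exists_prime_orderOf_dvd_card' p hd
  exact h x x.2 (by rw [Subgroup.orderOf_coe, hx])

theorem isPRegular_map_iff_of_ker {π : E →* G} (h : ∀ x ∈ π.ker, IsPRegular p x) (x : E) :
    IsPRegular p (π x) ↔ IsPRegular p x := by
  refine ⟨fun h1 => ?_, fun h1 => h1.map π⟩
  rw [← pPart_eq_one_iff] at h1 ⊢
  exact (isPElt_pPart p x).eq_one_of_isPRegular (h _ (by rw [MonoidHom.mem_ker, map_pPart, h1]))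

theorem exists_lift_of_central {π : E →* G} (hπ : Function.Surjective π)
    (hc : π.ker ≤ Subgroup.center E) (h : ∀ x ∈ π.ker, IsPRegular p x) {e : D →* G}
    (he : ∀ g, IsPElt p (e g)) (hD : ∀ a b : D, a * b = b * a) :
    ∃ d : D →* E, (∀ g, π (d g) = e g) ∧ (∀ g, IsPElt p (d g)) ∧
      ∀ g x, π x = e g → IsPElt p x → x = d g := by
  choose s hs using hπ
  have h1 : ∀ g, π (pPart p (s (e g))) = e g := fun g => by
    rw [map_pPart, hs, pPart_eq_self_iff.2 (he g)]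
  have h2 : ∀ x y, π x = π y → IsPElt p x → IsPElt p y → x = y := fun x y hxy hx hy => by
    have hz : y⁻¹ * x ∈ π.ker := by rw [MonoidHom.mem_ker, map_mul, map_inv, hxy, inv_mul_cancel]
    have := pPart_mul_eq (Subgroup.mem_center_iff.1 (hc hz) y) hy (h _ hz)
    rwa [mul_inv_cancel_left, pPart_eq_self_iff.2 hx] at this
  refine ⟨MonoidHom.mk' (fun g => pPart p (s (e g))) fun a b => ?_, h1, fun g => isPElt_pPart p _,
    fun g x hx hx' => h2 _ _ (hx.trans (h1 g).symm) hx' (isPElt_pPart p _)⟩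
  refine h2 _ _ (by rw [h1, map_mul π, h1, h1, map_mul]) (isPElt_pPart p _) ?_
  have := h2 (pPart p (s (e a)) * pPart p (s (e b)) * (pPart p (s (e a)))⁻¹) (pPart p (s (e b)))
    (by rw [map_mul, map_mul, map_inv, h1, h1, ← map_mul, hD, map_mul, mul_inv_cancel_right])
    (by rw [← pPart_eq_self_iff, pPart_conj, pPart_pPart]) (isPElt_pPart p _)
  rw [← pPart_eq_self_iff, pPart_mul_of_commute p (mul_inv_eq_iff_eq_mul.1 this), pPart_pPart,
    pPart_pPart]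

theorem IsPModular.card_centralizer_div_mem (hM : IsPModular p M) {π : E →* G}
    (hπ : Function.Surjective π) (hc : π.ker ≤ Subgroup.center E) (h : ∀ x ∈ π.ker, IsPRegular p x)
    {q : E →* Q} (hq : ∀ x ∈ q.ker, IsPRegular p x) (x : E) :
    (Nat.card (Subgroup.centralizer ({q x} : Set Q)) : ℂ) /
      Nat.card (Subgroup.centralizer ({π x} : Set G)) ∈ locO M := by
  rw [hM.natCast_div_mem_iff Nat.card_pos.ne' Nat.card_pos.ne']
  have h1 := card_mul_card_centralizer_map π.ker.subtype_injective hπ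
    (Subgroup.range_subtype _).symm x
  have h2 : Nat.card {n : π.ker // IsConj (π.ker.subtype n * x) x} ∣ Nat.card π.ker :=
    Subgroup.card_subgroup_dvd_card (conjShiftSubgroup π.ker.subtype
      (fun n g => (Subgroup.mem_center_iff.1 (hc n.2) g).symm) x)
  have h3 := not_dvd_card_of_forall_isPRegular h
  have h4 := congrArg (fun n : ℕ => n.factorization p) h1
  simp only [Nat.factorization_mul Nat.card_pos.ne' Nat.card_pos.ne',
    Nat.factorization_mul Nat.card_pos.ne' (ne_zero_of_dvd_ne_zero Nat.card_pos.ne' h2),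
    Finsupp.add_apply, Nat.factorization_eq_zero_of_not_dvd h3,
    Nat.factorization_eq_zero_of_not_dvd fun h => h3 (h.trans h2), zero_add, add_zero] at h4
  rw [h4]
  set C := Subgroup.centralizer ({x} : Set E)
  have h5 := (q.comp C.subtype).ker.card_mul_index
  have h6 : ¬ p ∣ Nat.card (q.comp C.subtype).ker :=
    not_dvd_card_of_forall_isPRegular fun y hy => isPRegular_coe_iff.1 (hq _ hy)
  have h7 : (q.comp C.subtype).ker.index ∣ Nat.card (Subgroup.centralizer ({q x} : Set Q)) := by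
    rw [Subgroup.index_ker]
    refine Subgroup.card_dvd_of_le ?_
    rintro _ ⟨y, rfl⟩
    rw [Subgroup.mem_centralizer_singleton_iff, MonoidHom.comp_apply, ← map_mul, ← map_mul]
    exact congrArg q (Subgroup.mem_centralizer_singleton_iff.1 y.2)
  rw [← h5, Nat.factorization_mul Nat.card_pos.ne' Subgroup.index_ne_zero_of_finite,
    Finsupp.add_apply, Nat.factorization_eq_zero_of_not_dvd h6, zero_add]
  exact (Nat.factorization_le_iff_dvd Subgroup.index_ne_zero_of_finite Nat.card_pos.ne').2 h7 p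

end Grp

variable {G : Type u} [Group G] [Finite G] {H : Type v} [Group H] [Finite H]
  {N : Type w} [Group N] [Finite N] {C : Type w'} [Group C] [Finite C]

theorem CharCover.isPRegular_of_mem_ker {f : N →* G} {θ : IrrCharacter N}
    (c : CharCover.{u, w, u} f θ) (hN : ¬ p ∣ Nat.card N) : ∀ x ∈ c.π.ker, IsPRegular p x :=
  fun x hx => isPRegular_of_mem_of_not_dvd (fun h => (hp.out.dvd_mul.1 (h.trans c.card_ker_dvd)).elim
    (fun h => hN (h.trans θ.charDegree_dvd_card)) fun h => hN (h.trans (detOrder_dvd_card _))) hx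

theorem CharCover.isPRegular_of_mem_q_ker {f : N →* G} {θ : IrrCharacter N}
    (c : CharCover.{u, w, u} f θ) (hN : ¬ p ∣ Nat.card N) : ∀ x ∈ c.q.ker, IsPRegular p x := by
  rw [c.q_ker]
  rintro _ ⟨n, rfl⟩
  exact IsPRegular.map (fun h => hN (h.trans (orderOf_dvd_natCard n))) _

/-- The perfect isometry above the Glauberman correspondence. -/
theorem exists_isPerfectIsometry_glauberman (hM : IsPModular p M) {D : Type*} [CommGroup D]
    [Finite D] (hD : IsPGroup p D) {e : D →* G} (he : Function.Injective e)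
    {f : N →* G} [IsNormalEmb f] (hN : ¬ p ∣ Nat.card N) {i : H →* G} (hi : Function.Injective i)
    (hsup : ∀ g, ∃ n h, g = f n * i h) {α : H →* MulAut D} (hα : ∀ h g, i h * e g = e (α h g) * i h)
    {a : C →* H} [IsNormalEmb a] {j : C →* N} (hfac : ∀ c, i (a c) = f (j c))
    (hj : ∀ x, (∀ g, e g * f x = f x * e g) ↔ x ∈ j.range)
    (ha : ∀ h n, i h = f n → h ∈ a.range) {θ : IrrCharacter N} (hθ : inertia f θ = ⊤)
    {δ : IrrCharacter C} (hδ : inertia a δ = ⊤) (hm : ¬ p ∣ ipNat (θ.1 ∘ j) δ.1) :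
    ∃ I ε, IsPerfectIsometry p M (irrOver a {δ}) (irrOver f {θ}) I ε := by
  classical
  have hfi := IsNormalEmb.injective (f := f)
  have hai := IsNormalEmb.injective (f := a)
  have hji : Function.Injective j := fun x y h => hai (hi (by rw [hfac, hfac, h]))
  have hC : ¬ p ∣ Nat.card C := fun h => hN (h.trans (Subgroup.card_dvd_of_injective j hji))
  obtain ⟨c₁⟩ := nonempty_charCover hθ
  obtain ⟨c₂⟩ := nonempty_charCover hδ
  have z₁ := c₁.isPRegular_of_mem_ker hN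
  have z₂ := c₂.isPRegular_of_mem_ker hC
  let Γ : Subgroup (c₁.E × c₂.E) := (c₁.π.comp (MonoidHom.fst _ _)).eqLocus
    ((i.comp c₂.π).comp (MonoidHom.snd _ _))
  let r₁ : Γ →* c₁.E := (MonoidHom.fst _ _).comp Γ.subtype
  let r₂ : Γ →* c₂.E := (MonoidHom.snd _ _).comp Γ.subtype
  have hΓ : ∀ γ : Γ, c₁.π (r₁ γ) = i (c₂.π (r₂ γ)) := fun γ => γ.2
  have hmk : ∀ x y, c₁.π x = i (c₂.π y) → ∃ γ : Γ, r₁ γ = x ∧ r₂ γ = y := fun x y h =>
    ⟨⟨(x, y), h⟩, rfl, rfl⟩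
  have hext : ∀ γ γ' : Γ, r₁ γ = r₁ γ' → r₂ γ = r₂ γ' → γ = γ' := fun γ γ' h h' =>
    Subtype.ext (Prod.ext h h')
  have hr₂ : Function.Surjective r₂ := fun y => by
    obtain ⟨x, hx⟩ := c₁.π_surjective (i (c₂.π y))
    obtain ⟨γ, -, h⟩ := hmk x y hx
    exact ⟨γ, h⟩
  have hk₂ : Function.Surjective (c₂.q.comp r₂) := c₂.q_surjective.comp hr₂
  have hk₁ : Function.Surjective (c₁.q.comp r₁) := fun u => by
    obtain ⟨x, rfl⟩ := c₁.q_surjective u
    obtain ⟨n, h, hg⟩ := hsup (c₁.π x)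
    obtain ⟨y, rfl⟩ := c₂.π_surjective h
    obtain ⟨γ, h1, -⟩ := hmk ((c₁.ι n)⁻¹ * x) y (by rw [map_mul, map_inv, c₁.π_ι, hg]; group)
    exact ⟨γ, by simp [h1]⟩
  let b : C →* Γ := ((c₁.ι.comp j).prod c₂.ι).codRestrict Γ fun c => by
    change c₁.π (c₁.ι (j c)) = i (c₂.π (c₂.ι c))
    rw [c₁.π_ι, c₂.π_ι, hfac]
  have hb₁ : ∀ c, r₁ (b c) = c₁.ι (j c) := fun c => rfl
  have hb₂ : ∀ c, r₂ (b c) = c₂.ι c := fun c => rfl
  haveI : IsNormalEmb b := ⟨fun x y h => IsNormalEmb.injective (f := c₂.ι) (congrArg r₂ h), ⟨by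
    rintro _ ⟨c, rfl⟩ γ
    refine ⟨conjAut c₂.ι (r₂ γ) c, hext _ _ ?_ (by simp [hb₂])⟩
    rw [map_mul, map_mul, map_inv, hb₁, hb₁, ← map_conjAut]
    congr 1
    apply hfi
    rw [← hfac, ← c₂.π_ι, ← c₁.π_ι, map_conjAut, map_conjAut]
    simp [hΓ, c₁.π_ι, c₂.π_ι, hfac]⟩⟩
  obtain ⟨d, hd1, hd2, hd3⟩ := exists_lift_of_central c₁.π_surjective c₁.ker_le_center z₁ (e := e)
    (fun g => by
      obtain ⟨k, hk⟩ := hD.exists_orderOf_eq_pow g
      exact ⟨k, by rw [orderOf_injective e he, hk]⟩) mul_comm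
  obtain ⟨μ, hμ1, hμ2⟩ := exists_linear_of_glauberman hD (f := c₁.ι) (i := r₁) (a := b) hb₁ (d := d)
    (fun x y h => he (by rw [← hd1, h, hd1])) (α := α.comp (c₂.π.comp r₂))
    (fun γ g => by
      rw [← mul_inv_eq_iff_eq_mul]
      refine hd3 _ _ ?_ (by rw [← pPart_eq_self_iff, pPart_conj, pPart_eq_self_iff.2 (hd2 g)])
      rw [map_mul, map_mul, map_inv, hd1, hΓ, hα, mul_inv_cancel_right]; rfl)
    (fun x => by
      rw [← hj]
      refine forall_congr' fun g => ⟨fun h => by simpa [hd1, c₁.π_ι] using congrArg c₁.π h,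
        fun h => ?_⟩
      rw [← mul_inv_eq_iff_eq_mul, ← map_conjAut, c₁.π_conjAut, hd1]
      congr 1
      rw [conjAut_eq_iff, h, mul_inv_cancel_right])
    hN hC c₁.ext.isCharacter c₁.isIrr_ext_comp (c₂.ext.isCharacter.comp r₂) c₂.isIrr_ext_comp
    (by rw [c₁.ext_comp]; exact (show (c₂.ext.1 ∘ r₂) ∘ b = δ.1 from c₂.ext_comp) ▸ hm)
  have hμ : ∀ (γ : Γ) (x : c₁.π.ker) (y : c₂.π.ker), r₁ γ = x → r₂ γ = y →
      (μ γ : ℂ) * c₂.lam y = c₁.lam x := by
    intro γ x y hx hy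
    refine hμ2 γ _ _ (Nat.card c₁.π.ker * Nat.card c₂.π.ker) (fun h => (hp.out.dvd_mul.1 h).elim
      (not_dvd_card_of_forall_isPRegular z₁) (not_dvd_card_of_forall_isPRegular z₂)) ?_ ?_ ?_
      (fun t => by rw [hx, c₁.ext_mul]) fun t => by
        rw [Function.comp_apply, map_mul, hy, c₂.ext_mul]; rfl
    · rw [pow_mul, ← Units.val_pow_eq_pow_val, ← map_pow, pow_card_eq_one', map_one]; simp
    · rw [mul_comm, pow_mul, ← Units.val_pow_eq_pow_val, ← map_pow, pow_card_eq_one', map_one]; simp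
    · rw [MonoidHom.comp_apply, MonoidHom.comp_apply, hy, MonoidHom.mem_ker.1 y.2, map_one]
  -- transfer between `Irr(Q₁ | λ₁)` and `Irr(Q₂ | λ₂)`
  have t₁ : ∀ β : IrrCharacter c₁.Q, LiesOver c₁.zEmb β.1 c₁.lamInv.1 → ∃ η : IrrCharacter H,
      LiesOver a η.1 δ.1 ∧ (∀ γ, η (c₂.π (r₂ γ)) = c₂.ext (r₂ γ) * (μ γ * β (c₁.q (r₁ γ)))) ∧
        ∃ β', c₂.Rel η.1 β' ∧ ∀ γ, β' (c₂.q (r₂ γ)) = μ γ * β (c₁.q (r₁ γ)) := by
    intro β hβ
    obtain ⟨β', hβ'⟩ := (μ • β.inflate _ hk₁).exists_inflate_eq _ hk₂ fun γ hγ => by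
      obtain ⟨c, hc⟩ : r₂ γ ∈ c₂.ι.range := c₂.q_ker ▸ hγ
      have h1 : r₁ (γ * (b c)⁻¹) ∈ c₁.π.ker := by
        rw [MonoidHom.mem_ker, hΓ, map_mul, map_inv, hb₂, hc, mul_inv_cancel, map_one, map_one]
      have h2 := hμ (γ * (b c)⁻¹) ⟨_, h1⟩ 1 rfl (by simp [hb₂, hc])
      have h3 := c₁.apply_zEmb_mul_of_liesOver hβ ⟨_, h1⟩ 1
      have h4 := c₁.lam_mul_lamInv ⟨_, h1⟩
      simp only [map_mul, map_inv, hμ1, inv_one, mul_one, map_one, Units.val_one,
        CharCover.zEmb_apply, hb₁, CharCover.q_ι] at h2 h3 h4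
      simp only [IrrCharacter.linear_smul_apply, IrrCharacter.inflate_apply, MonoidHom.comp_apply,
        map_one, Units.val_one, one_mul]
      rw [h3, h2, ← mul_assoc, h4, one_mul]
    have h1 : ∀ γ, β' (c₂.q (r₂ γ)) = μ γ * β (c₁.q (r₁ γ)) := fun γ =>
      congrArg (fun χ : IrrCharacter Γ => χ γ) hβ'
    obtain ⟨η, hη⟩ := c₂.exists_rel_left (β := β'.1) fun z y => by
      obtain ⟨γ, rfl⟩ := hk₂ y
      obtain ⟨ζ, e1, e2⟩ := hmk 1 z (by rw [MonoidHom.mem_ker.1 z.2, map_one, map_one])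
      have h2 := hμ ζ 1 z e1 e2
      have h3 := h1 (ζ * γ)
      simp only [map_mul, e1, e2, one_mul, map_one, Units.val_one, Units.val_mul] at h2 h3
      rw [CharCover.zEmb_apply, MonoidHom.comp_apply, h3, h1]
      linear_combination (μ γ * β (c₁.q (r₁ γ))) * (c₂.lamInv z * h2 - μ ζ * c₂.lam_mul_lamInv z)
    exact ⟨⟨η, hη.isIrr_iff.2 β'.2⟩, hη.liesOver_left β'.apply_one_ne_zero,
      fun γ => by rw [← h1]; exact hη _, β'.1, hη, h1⟩
  have t₂ : ∀ η : IrrCharacter H, LiesOver a η.1 δ.1 → ∃ β : IrrCharacter c₁.Q,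
      LiesOver c₁.zEmb β.1 c₁.lamInv.1 ∧
        ∀ γ, η (c₂.π (r₂ γ)) = c₂.ext (r₂ γ) * (μ γ * β (c₁.q (r₁ γ))) := by
    intro η hη
    obtain ⟨β', hβ'⟩ := c₂.exists_rel_of_liesOver_left hη
    obtain ⟨β, hβ⟩ := (μ⁻¹ • β'.inflate _ hk₂).exists_inflate_eq _ hk₁ fun γ hγ => by
      obtain ⟨n, hn⟩ : r₁ γ ∈ c₁.ι.range := c₁.q_ker ▸ hγ
      obtain ⟨c, hc⟩ := ha (c₂.π (r₂ γ)) n (by rw [← hΓ, ← hn, c₁.π_ι])
      obtain rfl : j c = n := hfi (by rw [← hfac, hc, ← hΓ, ← hn, c₁.π_ι])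
      have h1 : r₂ (γ * (b c)⁻¹) ∈ c₂.π.ker := by
        rw [MonoidHom.mem_ker, map_mul, map_inv, hb₂, map_mul, map_inv, c₂.π_ι, hc, mul_inv_cancel]
      have h2 := hμ (γ * (b c)⁻¹) 1 ⟨_, h1⟩ (by simp [hb₁, hn]) rfl
      have h3 := hβ'.apply_zEmb_mul ⟨_, h1⟩ 1
      have h4 := c₂.lam_mul_lamInv ⟨_, h1⟩
      simp only [map_mul, map_inv, hμ1, inv_one, mul_one, map_one, Units.val_one,
        CharCover.zEmb_apply, hb₂, CharCover.q_ι] at h2 h3 h4
      simp only [IrrCharacter.linear_smul_apply, IrrCharacter.inflate_apply, MonoidHom.comp_apply,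
        map_one, Units.val_one, one_mul, MonoidHom.inv_apply, inv_one]
      rw [h3, Units.inv_mul_eq_iff_eq_mul]
      congr 1
      rw [← one_mul (c₂.lamInv _), ← h2, mul_assoc, h4, mul_one]
    have h1 : ∀ γ, β' (c₂.q (r₂ γ)) = μ γ * β (c₁.q (r₁ γ)) := fun γ => by
      have : β (c₁.q (r₁ γ)) = ((μ γ)⁻¹ : ℂˣ) * β' (c₂.q (r₂ γ)) :=
        congrArg (fun χ : IrrCharacter Γ => χ γ) hβ
      rw [this, ← mul_assoc, Units.mul_inv, one_mul]
    refine ⟨β, ?_, fun γ => by rw [← h1]; exact hβ' _⟩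
    obtain ⟨χ, hχ⟩ := c₁.exists_rel_left (β := β.1) fun z y => by
      obtain ⟨γ, rfl⟩ := hk₁ y
      obtain ⟨ζ, e1, e2⟩ := hmk z 1 (by rw [MonoidHom.mem_ker.1 z.2, map_one, map_one])
      have h2 := hμ ζ z 1 e1 e2
      have h3 := h1 (ζ * γ)
      simp only [map_mul, e1, e2, one_mul, map_one, Units.val_one, Units.val_mul, mul_one] at h2 h3
      rw [h1, h2, mul_comm _ (μ γ : ℂ), mul_assoc, mul_right_inj' (μ γ).ne_zero] at h3
      rw [CharCover.zEmb_apply, MonoidHom.comp_apply, h3]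
      linear_combination -β (c₁.q z * c₁.q (r₁ γ)) * c₁.lam_mul_lamInv z
    exact hχ.liesOver_right β.apply_one_ne_zero
  choose A' hA1 hA2 B' hB1 hB2 using fun s : {β : IrrCharacter c₁.Q // LiesOver c₁.zEmb β.1 c₁.lamInv.1} =>
    t₁ s.1 s.2
  have hπ₂ : Function.Surjective (c₂.π.comp r₂) := c₂.π_surjective.comp hr₂
  have e₁ : Set.range (fun s => (c₁.irrEquiv.symm s).1) = irrOver f {θ} := by
    ext χ
    rw [mem_irrOver_singleton]
    exact ⟨fun ⟨s, hs⟩ => hs ▸ (c₁.irrEquiv.symm s).2, fun h => ⟨c₁.irrEquiv ⟨χ, h⟩, by simp⟩⟩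
  have e₂ : Set.range A' = irrOver a {δ} := by
    ext η
    rw [mem_irrOver_singleton]
    refine ⟨fun ⟨s, hs⟩ => hs ▸ hA1 s, fun h => ?_⟩
    obtain ⟨β, h1, h2⟩ := t₂ η h
    refine ⟨⟨β, h1⟩, Subtype.ext (funext fun y => ?_)⟩
    obtain ⟨γ, rfl⟩ := hπ₂ y
    exact (hA2 _ γ).trans (h2 γ).symm
  rw [← e₁, ← e₂]
  refine exists_isPerfectIsometry_of_param hM (fun _ => 1)
    (Subtype.val_injective.comp c₁.irrEquiv.symm.injective) (fun s t hst => ?_)
    (fun _ => Or.inl rfl) fun g h => ?_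
  · refine Subtype.ext (Subtype.ext (funext fun y => ?_))
    obtain ⟨γ, rfl⟩ := hk₁ y
    have := hB2 t γ
    rw [← (hB1 s).right_unique (β' := B' t) (hst ▸ hB1 t), hB2] at this
    exact mul_left_cancel₀ (μ γ).ne_zero this
  obtain ⟨x, rfl⟩ := c₁.π_surjective g
  obtain ⟨γ, rfl⟩ := hπ₂ h
  letI := Fintype.ofFinite c₁.π.ker
  have hl : c₁.lamInv.1 = fun z => ((c₁.lam⁻¹ z : ℂˣ) : ℂ) := funext c₁.lamInv_apply
  have hs := sum_liesOver_mul_conj (f := c₁.zEmb)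
    (fun z y => (Subgroup.mem_center_iff.1 (c₁.zEmb_range_le_center ⟨z, rfl⟩) y).symm) c₁.lam⁻¹
    (c₁.q x) (c₁.q (r₁ γ))⁻¹
  rw [Finset.sum_subtype (F := inferInstance) _
    (p := fun β : IrrCharacter c₁.Q => LiesOver c₁.zEmb β.1 c₁.lamInv.1) (by simp [hl])] at hs
  have hsum : ∑ s, ((1 : ℤ) : ℂ) * (c₁.irrEquiv.symm s).1 (c₁.π x) * A' s (c₂.π.comp r₂ γ) =
      ∑ z : c₁.π.ker with IsConj (c₁.zEmb z * c₁.q x) (c₁.q (r₁ γ))⁻¹,
        c₁.ext x * c₂.ext (r₂ γ) * μ γ * (Nat.card c₁.π.ker : ℂ)⁻¹ * conj (c₁.lam⁻¹ z : ℂ) *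
          Nat.card (Subgroup.centralizer ({c₁.q (r₁ γ)} : Set c₁.Q)) := by
    have : Subgroup.centralizer ({(c₁.q (r₁ γ))⁻¹} : Set c₁.Q) =
        Subgroup.centralizer {c₁.q (r₁ γ)} := by
      ext; simp only [Subgroup.mem_centralizer_singleton_iff]; exact Commute.inv_right_iff
    rw [this] at hs
    rw [← Finset.sum_mul, ← Finset.mul_sum]
    trans c₁.ext x * c₂.ext (r₂ γ) * μ γ * ∑ s : {β : IrrCharacter c₁.Q //
      LiesOver c₁.zEmb β.1 c₁.lamInv.1}, s.1 (c₁.q x) * conj (s.1 (c₁.q (r₁ γ))⁻¹)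
    · rw [Finset.mul_sum]
      refine Finset.sum_congr rfl fun s _ => ?_
      rw [MonoidHom.comp_apply, hA2, c₁.rel_irrEquiv_symm s x, s.1.isCharacter.isGen.apply_inv,
        Complex.conj_conj]
      push_cast; ring
    · rw [hs]; ring
  have hO : ∀ z : c₁.π.ker, c₁.ext x * c₂.ext (r₂ γ) * μ γ * (Nat.card c₁.π.ker : ℂ)⁻¹ *
      conj (c₁.lam⁻¹ z : ℂ) ∈ locO M := fun z =>
    mul_mem (mul_mem (mul_mem (mul_mem (c₁.ext.mem_locO _) (c₂.ext.mem_locO _))
      ((IrrCharacter.ofLinear μ).mem_locO γ))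
      (hM.inv_natCast_mem (not_dvd_card_of_forall_isPRegular z₁)))
      (mem_locO_of_isIntegral (isIntegral_conj
        ((IrrCharacter.ofLinear c₁.lam⁻¹).isCharacter.isIntegral z)))
  have hreg : ∀ ζ : Γ, IsPRegular p (r₁ ζ) → IsPRegular p (r₂ ζ) → IsPRegular p ζ := by
    intro ζ h1 h2
    rw [← pPart_eq_one_iff] at h1 h2 ⊢
    exact hext _ _ (by rw [map_pPart, h1, map_one]) (by rw [map_pPart, h2, map_one])
  have w₁ := c₁.isPRegular_of_mem_q_ker hN
  have w₂ : ∀ ζ ∈ (c₂.π.comp r₂).ker, IsPRegular p ζ := fun ζ hζ =>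
    hreg ζ (z₁ _ (by rw [MonoidHom.mem_ker, hΓ, show c₂.π (r₂ ζ) = 1 from hζ, map_one])) (z₂ _ hζ)
  have w₃ : ∀ ζ ∈ (c₁.q.comp r₁).ker, IsPRegular p ζ := fun ζ hζ => by
    have h1 := w₁ _ hζ
    refine hreg ζ h1 ((isPRegular_map_iff_of_ker z₂ _).1 ?_)
    have h2 := h1.map c₁.π
    rwa [hΓ, IsPRegular, orderOf_injective i hi] at h2
  have hz : ∀ z : c₁.π.ker, c₁.π (z * x) = c₁.π x := fun z => by
    rw [map_mul, MonoidHom.mem_ker.1 z.2, one_mul]
  simp only [hsum]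
  refine ⟨?_, ?_, ?_⟩
  · rw [Finset.sum_div]
    refine sum_mem fun z hz' => ?_
    have h1 := card_centralizer_eq_of_isConj (Finset.mem_filter.1 hz').2
    have h2 := hM.card_centralizer_div_mem c₁.π_surjective c₁.ker_le_center z₁ w₁ (z * x)
    have : Subgroup.centralizer ({(c₁.q (r₁ γ))⁻¹} : Set c₁.Q) =
        Subgroup.centralizer {c₁.q (r₁ γ)} := by
      ext; simp only [Subgroup.mem_centralizer_singleton_iff]; exact Commute.inv_right_iff
    rw [hz, map_mul, ← c₁.zEmb_apply, h1, this] at h2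
    rw [mul_div_assoc]
    exact mul_mem (hO z) h2
  · rw [Finset.sum_div]
    refine sum_mem fun z hz' => ?_
    rw [mul_div_assoc]
    refine mul_mem (hO z) (hM.card_centralizer_div_mem hπ₂ (fun ζ hζ => ?_) w₂ w₃ γ)
    refine Subgroup.mem_center_iff.2 fun ξ => hext _ _ ?_ ?_
    · rw [map_mul, map_mul]
      exact Subgroup.mem_center_iff.1 (c₁.ker_le_center (by
        rw [MonoidHom.mem_ker, hΓ, show c₂.π (r₂ ζ) = 1 from hζ, map_one])) _
    · rw [map_mul, map_mul]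
      exact Subgroup.mem_center_iff.1 (c₂.ker_le_center hζ) _
  · by_cases h0 : ∃ z : c₁.π.ker, IsConj (c₁.zEmb z * c₁.q x) (c₁.q (r₁ γ))⁻¹
    · obtain ⟨z, h0⟩ := h0
      left
      rw [← hz z, isPRegular_map_iff_of_ker z₁, ← isPRegular_map_iff_of_ker w₁, map_mul,
        ← c₁.zEmb_apply, isPRegular_iff_of_isConj h0, isPRegular_inv_iff,
        isPRegular_map_iff_of_ker w₂, ← isPRegular_map_iff_of_ker w₃ γ]
      rfl
    · right
      exact Finset.sum_eq_zero fun z hz' => (h0 ⟨z, (Finset.mem_filter.1 hz').2⟩).elim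

end Cfsg
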