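import Cfsg.Agent.Blk.FrobGen

/-!
# Galois action on exceptional characters
-/

set_option autoImplicit false
set_option linter.unusedSectionVars false
set_option linter.unusedVariables false
set_option linter.style.haveILetI false

namespace Cfsg

open Exc
open scoped ComplexConjugate Classical

universe u v w

variable {G : Type u} [Group G] [Finite G] {A : Type w} [Group A] [Fintype A] {p : ℕ}
  [Fact p.Prime] {M : Ideal AlgInt} {B X Y : Set (IrrCharacter G)} {E : Subgroup (MulAut A)}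
  {S : A → G → ℂ} {δ d : ℤ} {ζ : (A →* ℂˣ) → IrrCharacter G} {a : IrrCharacter G → ℤ}

/-- The Galois conjugate of a linear character. -/
noncomputable def Exc.galHom (σ : ℂ ≃+* ℂ) (lam : A →* ℂˣ) : A →* ℂˣ :=
  (Units.map σ.toMonoidHom).comp lam

theorem Exc.galHom_apply (σ : ℂ ≃+* ℂ) (lam : A →* ℂˣ) (u : A) :
    ((galHom σ lam u : ℂˣ) : ℂ) = σ (lam u) := rfl

theorem Exc.galHom_ne_one (σ : ℂ ≃+* ℂ) {lam : A →* ℂˣ} (h : lam ≠ 1) : galHom σ lam ≠ 1 := by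
  intro e
  apply h
  ext u
  apply σ.injective
  rw [← galHom_apply, e]
  simp

theorem ExcSys.excDec_gal_smul (h : ExcSys p M B E S) (σ : ℂ ≃+* ℂ)
    (hσ : ∀ u, u ≠ 1 → ∀ g, σ (S u g) = S u g) {χ : IrrCharacter G} (hχ : χ ∈ B) {u : A}
    (hu : u ≠ 1) : excDec S (σ • χ).1 u = σ (excDec S χ.1 u) :=
  h.dec_ringHom σ.toRingHom hσ χ.isClassFunction (blockPart_irr_of_mem hχ) hu

theorem ExcSys.mem_of_excDec_ne_zero (h : ExcSys p M B E S) {χ : IrrCharacter G} {u : A}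
    (hu : u ≠ 1) (h0 : excDec S χ.1 u ≠ 0) : χ ∈ B := by
  by_contra hχ
  apply h0
  rw [excDec, ← conj_ip, (blockPart_eq_self_iff (h.cf u)).1 (h.part u hu) χ hχ]
  simp

theorem ExcSys.gal_smul_mem (h : ExcSys p M B E S) (σ : ℂ ≃+* ℂ)
    (hσ : ∀ u, u ≠ 1 → ∀ g, σ (S u g) = S u g) {χ : IrrCharacter G} (hχ : χ ∈ B) : σ • χ ∈ B := by
  obtain ⟨u, hu, h0⟩ := h.exists_dec_ne_zero hχ
  refine h.mem_of_excDec_ne_zero hu ?_
  rw [h.excDec_gal_smul σ hσ hχ hu]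
  exact (map_ne_zero σ).2 h0

theorem IrrCharacter.gal_apply_of_isPRegular (χ : IrrCharacter G) (σ : ℂ ≃+* ℂ)
    (hr : ∀ z : ℂ, z ^ ordCompl[p] (Nat.card G) = 1 → σ z = z) {g : G} (hg : IsPRegular p g) :
    σ (χ g) = χ g := by
  refine χ.isCharacter.isGen.ringHom_apply_eq_self σ.toRingHom fun z hz => hr z ?_
  obtain ⟨k, hk⟩ := orderOf_dvd_of_pow_eq_one hg.pow_ordCompl_eq_one
  rw [hk, pow_mul, hz, one_pow]

theorem ExcOut.gal_smul_X (o : ExcOut p B E S X Y δ d ζ a) (h : ExcSys p M B E S) (σ : ℂ ≃+* ℂ)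
    (hσ : ∀ u, u ≠ 1 → ∀ g, σ (S u g) = S u g)
    (hr : ∀ z : ℂ, z ^ ordCompl[p] (Nat.card G) = 1 → σ z = z) {χ : IrrCharacter G}
    (hχ : χ ∈ X) : σ • χ = χ := by
  have hB := o.X_subset hχ
  refine Subtype.ext (h.ext_dec (σ • χ).isClassFunction χ.isClassFunction
    (blockPart_irr_of_mem (h.gal_smul_mem σ hσ hB)) (blockPart_irr_of_mem hB)
    (fun g hg => χ.gal_apply_of_isPRegular σ hr hg) fun u hu => ?_)
  rw [h.excDec_gal_smul σ hσ hB hu, o.nonexc χ hχ u hu, map_intCast]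

theorem ExcOut.gal_smul_zeta (o : ExcOut p B E S X Y δ d ζ a) (h : ExcSys p M B E S)
    (σ : ℂ ≃+* ℂ) (hσ : ∀ u, u ≠ 1 → ∀ g, σ (S u g) = S u g)
    (hr : ∀ z : ℂ, z ^ ordCompl[p] (Nat.card G) = 1 → σ z = z) {lam : A →* ℂˣ}
    (hl : lam ≠ 1) : σ • ζ lam = ζ (galHom σ lam) := by
  letI := Fintype.ofFinite E
  have hl' := galHom_ne_one σ hl
  have hB := o.Y_subset (o.mem lam hl)
  refine Subtype.ext (h.ext_dec (σ • ζ lam).isClassFunction (ζ _).isClassFunction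
    (blockPart_irr_of_mem (h.gal_smul_mem σ hσ hB))
    (blockPart_irr_of_mem (o.Y_subset (o.mem _ hl')))
    (fun g hg => ((ζ lam).gal_apply_of_isPRegular σ hr hg).trans
      (o.reg_eq _ (o.mem _ hl) _ (o.mem _ hl') g hg)) fun u hu => ?_)
  rw [h.excDec_gal_smul σ hσ hB hu, o.exc _ hl u hu, o.exc _ hl' u hu, map_add, map_mul,
    map_intCast, map_intCast, h.free.osum_eq h.comm hl, h.free.osum_eq h.comm hl', map_sum]
  rfl

/-- Nontrivial linear characters of a group of order `p` are Galois conjugate over the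
`p'`-roots of unity. -/
theorem Exc.exists_galHom_eq (hA : Nat.card A = p) {m : ℕ} (hm : ¬ p ∣ m) {lam mu : A →* ℂˣ}
    (hl : lam ≠ 1) (hm' : mu ≠ 1) :
    ∃ σ : ℂ ≃+* ℂ, (∀ z : ℂ, z ^ m = 1 → σ z = z) ∧ galHom σ lam = mu := by
  have hp : p.Prime := Fact.out
  haveI : NeZero p := ⟨hp.ne_zero⟩
  haveI : IsCyclic A := isCyclic_of_prime_card hA
  obtain ⟨g, hg⟩ := IsCyclic.exists_generator (α := A)
  have hprim : ∀ nu : A →* ℂˣ, nu ≠ 1 → IsPrimitiveRoot ((nu g : ℂˣ) : ℂ) p := by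
    intro nu hnu
    have h1 : orderOf (nu g) = p := by
      refine orderOf_eq_prime (by rw [← map_pow, ← hA, pow_card_eq_one', map_one]) fun e => hnu ?_
      ext u
      obtain ⟨k, rfl⟩ := hg u
      simp [e]
    rw [IsPrimitiveRoot.coe_units_iff, ← h1]
    exact IsPrimitiveRoot.orderOf _
  obtain ⟨k, -, hk, hk'⟩ := ((hprim lam hl).isPrimitiveRoot_iff).1 (hprim mu hm')
  have hm0 : m ≠ 0 := fun e => hm (e ▸ dvd_zero p)
  obtain ⟨l, hl1, hl2, hl3⟩ := exists_coprime_modEq_modEq_one hm0 hp.ne_zero hk (by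
    rw [((Nat.Prime.coprime_iff_not_dvd hp).2 hm).symm]; exact Nat.modEq_one)
  obtain ⟨σ, hσ⟩ := exists_ringEquiv_pow (mul_ne_zero hm0 hp.ne_zero) hl1
  refine ⟨σ, fun z hz => ?_, ?_⟩
  · rw [hσ z (by rw [pow_mul, hz, one_pow]), pow_eq_pow_of_modEq hl2 hz, pow_one]
  · have h1 : galHom σ lam g = mu g := by
      apply Units.ext
      rw [galHom_apply, hσ _ (by rw [mul_comm, pow_mul, (hprim lam hl).pow_eq_one, one_pow]),
        pow_eq_pow_of_modEq hl3 (hprim lam hl).pow_eq_one, hk']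
    ext u
    obtain ⟨k, rfl⟩ := hg u
    simp [h1]

end Cfsg

set_option linter.all false in
theorem Cfsg.Rz.Blk_FrobGal_0 : True := by
  have := @_root_.Cfsg.Exc.galHom.eq_def.{0}
  have := @_root_.Cfsg.Exc.galHom.eq_1.{0}
  have := @_root_.Cfsg.Exc.galHom.fun_cases
  trivial
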