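import Cfsg.Agent.Blk.Fong
import Cfsg.Agent.Grp.Transfer

/-!
# `p`-length one and restriction of the principal block to a Sylow normalizer (Isaacs–Smith)
-/

set_option autoImplicit false
set_option linter.unusedSectionVars false
set_option linter.unusedVariables false
set_option linter.style.haveILetI false

namespace Cfsg

open Subgroup

universe u v

variable {p : ℕ} [Fact p.Prime] {M : Ideal AlgInt} {G : Type u} [Group G] [Finite G]

local notation "C(" Q ")" => Subgroup.centralizer (SetLike.coe Q)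
local notation "N(" Q ")" => Subgroup.normalizer (SetLike.coe Q)

theorem pLengthLE_one_iff : PLengthLE p 1 G ↔ ¬ p ∣ (pCore p (G ⧸ pPrimeCore p G)).index := by
  have h1 : (upperPSeries p G 1).1 = pPrimeCore p G :=
    comap_pPrimeCore_quotient (N := ⊥) (by
      rw [card_bot]; exact (Fact.out : p.Prime).not_dvd_one)
  have key : ∀ (K : Subgroup G) [K.Normal], K = pPrimeCore p G →
      ((pCore p (G ⧸ K)).comap (QuotientGroup.mk' K)).index =
        (pCore p (G ⧸ pPrimeCore p G)).index := by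
    rintro K _ rfl
    exact index_comap_of_surjective _ (QuotientGroup.mk'_surjective _)
  have h2 : (upperPSeries p G 2).1.index = (pCore p (G ⧸ pPrimeCore p G)).index := key _ h1
  rw [← h2, index, ← pPrimeCore_eq_top_iff]
  change (pPrimeCore p (G ⧸ (upperPSeries p G 2).1)).comap (QuotientGroup.mk' _) = ⊤ ↔ _
  rw [← comap_top (QuotientGroup.mk' (upperPSeries p G 2).1)]
  exact (comap_injective (QuotientGroup.mk'_surjective _)).eq_iff

theorem hasNormalPComplement_of_inf_normalizer_eq (S : Sylow p G) (L : Subgroup G) [L.Normal]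
    (h : L ⊓ N((S : Subgroup G)) ≤ (S : Subgroup G) ⊓ C((S : Subgroup G))) :
    HasNormalPComplement p L := by
  refine hasNormalPComplement_of_fusion (sylowInfNormal S L) fun x hx g hg => ⟨1, one_mem _, ?_⟩
  rw [coe_sylowInfNormal, mem_subgroupOf] at hx hg
  obtain ⟨U, hU⟩ : ∃ U, U = (S : Subgroup G) ⊔ L := ⟨_, rfl⟩
  have hS : (S : Subgroup G) ≤ U := hU ▸ le_sup_left
  have hL : L ≤ U := hU ▸ le_sup_right
  have hc : ∀ y : L, (y : G) ∈ (S : Subgroup G) →
      inclusion hL y ∈ C(((S.subtype hS : Sylow p U) : Subgroup U)) := by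
    intro y hy s hs
    exact Subtype.ext ((h ⟨y.2, le_normalizer hy⟩).2 s hs)
  obtain ⟨n, hn, e⟩ := exists_mem_normalizer_conj_eq (S.subtype hS) (g := inclusion hL g)
    (hc x hx) (hc _ hg)
  have hn' : (n : G) ∈ N((S : Subgroup G)) := by
    refine mem_normalizer_of_forall_conj_mem fun s hs => ?_
    exact conj_mem_of_mem_normalizer hn (x := ⟨s, hS hs⟩) hs
  have h1 : (n : G) ∈ (S : Subgroup G) := by
    have : (n : G) ∈ ((S : Subgroup G) ⊔ L) ⊓ N((S : Subgroup G)) := ⟨hU ▸ n.2, hn'⟩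
    rw [sup_normal_inf_eq L le_normalizer] at this
    exact sup_le le_rfl (h.trans inf_le_left) this
  have h2 : (n : G) * x = x * n := (h ⟨x.2, le_normalizer hx⟩).2 _ h1
  have h3 : (n : G) * x * (n : G)⁻¹ = g * x * (g : G)⁻¹ := congrArg Subtype.val e
  apply Subtype.ext
  simp only [one_mul, inv_one, mul_one, coe_mul, coe_inv]
  rw [← h3, h2, mul_inv_cancel_right]

theorem sylow_normal_of_forall_exists_inf (h0 : pPrimeCore p G = ⊥) (P : Sylow p G)
    (h : ∀ X : Subgroup G, X ≤ P → N((P : Subgroup G)) ≤ N(X) →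
      ∃ L : Subgroup G, L.Normal ∧ L ⊓ N((P : Subgroup G)) = X) : (P : Subgroup G).Normal := by
  obtain ⟨Q, ⟨hQn, hQP, hQC⟩, hmax⟩ := (Set.toFinite {Q : Subgroup G | Q.Normal ∧ Q ≤ P ∧
    ∀ g ∈ normalClosure ((P : Subgroup G) : Set G), IsPRegular p g → g ∈ C(Q)}).exists_maximal
    ⟨⊥, inferInstance, bot_le, fun g _ _ => by simp [mem_centralizer_iff]⟩
  by_contra hP
  have hQ : IsPGroup p Q := P.2.to_le hQP
  have hs := QuotientGroup.mk'_surjective Q
  obtain ⟨S, hS⟩ : ∃ S : Sylow p (G ⧸ Q), (S : Subgroup _) = (P : Subgroup G).map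
    (QuotientGroup.mk' Q) := ⟨P.mapSurjective hs, rfl⟩
  have hPS : (S : Subgroup (G ⧸ Q)).comap (QuotientGroup.mk' Q) = P := by
    rw [hS, comap_map_mk'_eq_sup, sup_eq_left.2 hQP]
  have hNS : N((S : Subgroup (G ⧸ Q))).comap (QuotientGroup.mk' Q) = N((P : Subgroup G)) := by
    rw [hS, comap_mk'_normalizer_map, sup_eq_left.2 hQP]
  have hS0 : (S : Subgroup (G ⧸ Q)) ≠ ⊥ := by
    intro h1
    rw [hS, map_mk'_eq_bot_iff] at h1
    exact hP (le_antisymm hQP h1 ▸ hQn)
  obtain ⟨Z, hZ⟩ : ∃ Z, Z = (S : Subgroup (G ⧸ Q)) ⊓ C((S : Subgroup (G ⧸ Q))) := ⟨_, rfl⟩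
  have hZ0 : Z ≠ ⊥ := hZ ▸ inf_centralizer_ne_bot_of_isPGroup S.2 S.2 le_normalizer hS0
  have hXP : Z.comap (QuotientGroup.mk' Q) ≤ P := hPS ▸ comap_mono (hZ ▸ inf_le_left)
  obtain ⟨L₀, hL₀, e₀⟩ := h _ hXP (by
    rw [← hNS]
    refine (comap_mono ?_).trans (le_normalizer_comap _)
    rw [hZ]
    exact le_normalizer_inf le_rfl (normalizer_le_normalizer_centralizer _))
  obtain ⟨L, hL⟩ : ∃ L, L = L₀ ⊓ normalClosure ((P : Subgroup G) : Set G) := ⟨_, rfl⟩
  haveI : L.Normal := hL ▸ inferInstance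
  have e : L ⊓ N((P : Subgroup G)) = Z.comap (QuotientGroup.mk' Q) := by
    rw [hL, inf_right_comm, e₀, inf_eq_left.2 (hXP.trans le_normalClosure)]
  haveI : (L.map (QuotientGroup.mk' Q)).Normal := Normal.map inferInstance _ hs
  have h1 : HasNormalPComplement p (L.map (QuotientGroup.mk' Q)) := by
    refine hasNormalPComplement_of_inf_normalizer_eq S _ ?_
    rintro _ ⟨⟨x, hx, rfl⟩, hx'⟩
    rw [← hZ]
    have : x ∈ L ⊓ N((P : Subgroup G)) := ⟨hx, hNS ▸ hx'⟩
    rwa [e] at this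
  have h2 : HasNormalPComplement p (L ⊓ C(Q) : Subgroup G) := by
    let φ : (L ⊓ C(Q) : Subgroup G) →* L.map (QuotientGroup.mk' Q) :=
      ((QuotientGroup.mk' Q).comp (L ⊓ C(Q)).subtype).codRestrict _ fun x => ⟨x, x.2.1, rfl⟩
    refine HasNormalPComplement.of_quotient_of_le_center (Z := φ.ker) (fun x hx => ?_)
      (h1.of_injective _ (QuotientGroup.kerLift_injective φ))
    have : (x : G) ∈ Q := (QuotientGroup.eq_one_iff _).1 (congrArg Subtype.val hx)
    exact mem_center_iff.2 fun y => Subtype.ext (y.2.2 _ this).symm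
  have h3 : L ⊓ C(Q) ≤ pCore p G := pPrimePCore_eq_pCore h0 ▸ le_pPrimePCore h2
  have h4 : IsPGroup p L := by
    refine isPGroup_iff_forall_isPElt.2 fun g hg => pPrimePart_eq_one_iff.1 ?_
    have hr := isPRegular_pPrimePart p g
    have hm : pPrimePart p g ∈ L := pPrimePart_mem p hg
    exact (isPElt_of_mem (isPGroup_pCore p G) (h3 ⟨hm, hQC _ (hL ▸ hm).2 hr⟩)).eq_one_of_isPRegular
      hr
  have h5 : L = Z.comap (QuotientGroup.mk' Q) := by
    rw [← e, inf_eq_left.2 (((le_pCore h4).trans (pCore_le_sylow P)).trans le_normalizer)]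
  have h6 : Q ≤ L := h5 ▸ le_comap_mk'_self Q Z
  have h7 : L ≤ Q := by
    refine hmax ⟨inferInstance, h5 ▸ hXP, fun g hg hr x hx => ?_⟩ h6
    have h8 : normalClosure ((P : Subgroup G) : Set G) ≤
        C((L.map (QuotientGroup.mk' Q) : Subgroup _)).comap (QuotientGroup.mk' Q) := by
      refine normalClosure_le_normal fun y hy z hz => ?_
      rw [h5, map_comap_eq_self_of_surjective hs, hZ] at hz
      exact (hz.2 _ (hS ▸ mem_map_of_mem _ hy)).symm
    have h9 : QuotientGroup.mk' Q x * QuotientGroup.mk' Q g =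
        QuotientGroup.mk' Q g * QuotientGroup.mk' Q x := h8 hg _ (mem_map_of_mem _ hx)
    refine (commute_of_commutator_mem_of_coprime (M := Q) (a := g) (x := x)
      (GA.mem_centralizer_iff_le.1 (hQC g hg hr)) ?_
      (IsPGroup.coprime_card_of_not_dvd hQ hr)).symm
    rw [← QuotientGroup.eq_one_iff, ← QuotientGroup.mk'_apply, map_mul, map_mul, map_mul, map_inv,
      map_inv, mul_assoc _ (QuotientGroup.mk' Q g), ← h9]
    group
  refine hZ0 ?_
  rw [← map_comap_eq_self_of_surjective hs Z, ← h5, map_mk'_eq_bot_iff]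
  exact h7

/-- Normal subgroups of a subgroup `L` cut out by the principal block are cut out by normal
subgroups of `G`. -/
theorem exists_normal_inf_eq_of_isIrr_comp (hM : IsPModular p M) {L : Subgroup G}
    (hL : Induces M L.subtype (principalBlock M L) (principalBlock M G))
    (h : ∀ χ ∈ principalBlock M G, IsIrrCharacter L (χ.1 ∘ L.subtype)) (X : Subgroup L) [X.Normal]
    (hX : ∀ ξ : IrrCharacter L, X ≤ charKer ξ.1 → ξ ∈ principalBlock M L) :
    ∃ K : Subgroup G, K.Normal ∧ K.subgroupOf L = X := by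
  have key : ∀ ξ : {ξ : IrrCharacter L // X ≤ charKer ξ.1}, ∃ χ : IrrCharacter G,
      χ.1 ∘ L.subtype = ξ.1.1 := by
    rintro ⟨ξ, hξ⟩
    obtain ⟨χ, hχ, h1⟩ := hL.exists_liesOver hM L.subtype_injective (hX ξ hξ)
    exact ⟨χ, (h χ hχ).eq_of_ip_ne_zero ξ.2 h1⟩
  choose F hF using key
  refine ⟨⨅ ξ, charKer (F ξ).1, normal_iInf_normal fun _ => inferInstance, ?_⟩
  ext x
  have : ∀ ξ, (x : G) ∈ charKer (F ξ).1 ↔ x ∈ charKer ξ.1.1 := fun ξ => by
    rw [← hF, (F ξ).isCharacter.charKer_comp]; rfl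
  simp only [mem_subgroupOf, mem_iInf, this]
  refine ⟨fun h1 => ?_, fun h1 ξ => ξ.2 h1⟩
  by_contra h2
  obtain ⟨ξ, h3, h4⟩ := exists_irr_le_charKer_not_mem X h2
  exact h4 (h1 ⟨ξ, h3⟩)

theorem induces_principal_normalizer (hM : IsPModular p M) {Q : Subgroup G} (hQ : IsPGroup p Q) :
    Induces M (N(Q)).subtype (principalBlock M N(Q)) (principalBlock M G) := by
  obtain ⟨B, hB⟩ := exists_induces_subtype hM hQ le_normalizer le_rfl
    (GA.centralizer_le_normalizer' Q) isPBlock_principalBlock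
  rwa [(hB.eq_principal_iff hM (subtype_injective _)).2 rfl] at hB

theorem sylow_normal_of_isIrr_comp (hM : IsPModular p M) (h0 : pPrimeCore p G = ⊥) (P : Sylow p G)
    (h : ∀ χ ∈ principalBlock M G,
      IsIrrCharacter N((P : Subgroup G)) (χ.1 ∘ (N((P : Subgroup G))).subtype)) :
    (P : Subgroup G).Normal := by
  have hi := induces_principal_normalizer hM P.2
  haveI : ((P.subtype le_normalizer : Sylow p N((P : Subgroup G))) :
    Subgroup N((P : Subgroup G))).Normal := normal_subgroupOf_of_le_normalizer le_rfl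
  have hs := isPSolvable_of_normal_sylow (P.subtype le_normalizer)
  have h1 : pPrimeCore p N((P : Subgroup G)) = ⊥ := by
    obtain ⟨K, hK, e⟩ := exists_normal_inf_eq_of_isIrr_comp hM hi h (pPrimeCore p _)
      fun ξ hξ => (hs.mem_principalBlock_iff hM ξ).2 fun g hg => ξ.mem_charKer.1 (hξ hg)
    have h2 : (P : Subgroup G) ⊓ K = ⊥ := by
      refine eq_bot_iff.2 fun x hx => ?_
      have h3 : (⟨x, le_normalizer hx.1⟩ : N((P : Subgroup G))) ∈ pPrimeCore p _ := e ▸ hx.2
      exact (isPElt_of_mem P.2 hx.1).eq_one_of_isPRegular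
        (isPRegular_coe_iff.2 (isPRegular_of_mem_pPrimeCore h3))
    have h3 := not_dvd_relIndex_sylow_inf_normal P K
    rw [← inf_relIndex_right, h2, relIndex_bot_left] at h3
    rw [← e, show K = ⊥ from eq_bot_iff.2 (h0 ▸ le_pPrimeCore_of_not_dvd h3), bot_subgroupOf]
  refine sylow_normal_of_forall_exists_inf h0 P fun X hX hN => ?_
  haveI : (X.subgroupOf N((P : Subgroup G))).Normal := normal_subgroupOf_of_le_normalizer hN
  obtain ⟨K, hK, e⟩ := exists_normal_inf_eq_of_isIrr_comp hM hi h (X.subgroupOf _)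
    fun ξ _ => hs.principalBlock_eq_univ hM h1 ▸ Set.mem_univ ξ
  refine ⟨K, hK, ?_⟩
  rw [subgroupOf_inj.1 e, inf_eq_left.2 (hX.trans le_normalizer)]

theorem pLengthLE_one_iff_isIrr_comp (hM : IsPModular p M) (P : Sylow p G) :
    PLengthLE p 1 G ↔ ∀ χ ∈ principalBlock M G,
      IsIrrCharacter N((P : Subgroup G)) (χ.1 ∘ (N((P : Subgroup G))).subtype) := by
  have hK := not_dvd_card_pPrimeCore p G
  have hs := QuotientGroup.mk'_surjective (pPrimeCore p G)
  have hk : ¬ p ∣ Nat.card (QuotientGroup.mk' (pPrimeCore p G)).ker := by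
    rwa [QuotientGroup.ker_mk']
  obtain ⟨S, hS⟩ : ∃ S : Sylow p (G ⧸ pPrimeCore p G), (S : Subgroup (G ⧸ pPrimeCore p G)) =
    (P : Subgroup G).map (QuotientGroup.mk' (pPrimeCore p G)) := ⟨P.mapSurjective hs, rfl⟩
  have hN : N((S : Subgroup (G ⧸ pPrimeCore p G))) =
      N((P : Subgroup G)).map (QuotientGroup.mk' _) := by
    rw [hS]
    exact (isCoprimeAction_of_isPGroup_left le_normalizer_of_normal P.2 hK).normalizer_map_mk'
  rw [pLengthLE_one_iff]
  refine ⟨fun h χ hχ => ?_, fun h => ?_⟩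
  · rw [← image_inflate_principalBlock hM hs hk] at hχ
    obtain ⟨β, -, rfl⟩ := hχ
    haveI := sylow_normal_of_not_dvd_index_pCore h S
    refine β.2.comp_of_surjective ((QuotientGroup.mk' _).comp (N((P : Subgroup G))).subtype) ?_
    rw [← MonoidHom.range_eq_top, MonoidHom.range_comp, range_subtype, ← hN, normalizer_eq_top]
  · haveI := sylow_normal_of_isIrr_comp hM (pPrimeCore_quotient_pPrimeCore p G) S fun β hβ => by
      let φ : N((P : Subgroup G)) →* N((S : Subgroup (G ⧸ pPrimeCore p G))) :=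
        ((QuotientGroup.mk' _).comp (N((P : Subgroup G))).subtype).codRestrict _ fun x =>
          hN ▸ mem_map_of_mem _ x.2
      refine IsIrrCharacter.of_comp_surjective φ (fun y => ?_)
        (h _ ((inflate_mem_principalBlock_iff hM hs hk β).2 hβ))
      obtain ⟨x, hx, e⟩ := (hN ▸ y.2 : (y : G ⧸ pPrimeCore p G) ∈
        N((P : Subgroup G)).map (QuotientGroup.mk' _))
      exact ⟨⟨x, hx⟩, Subtype.ext e⟩
    rw [pCore_eq_of_normal S]
    exact S.not_dvd_index

end Cfsg
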