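import Cfsg.Agent.Blk.DGN
import Cfsg.Agent.Blk.FrobCorr
import Cfsg.Agent.Blk.Fong
import Cfsg.Agent.Char.RelMcKay

/-!
# Blocks of `p`-solvable groups with abelian defect groups are perfectly isometric to their Brauer
correspondents
-/

set_option autoImplicit false
set_option linter.unusedSectionVars false
set_option linter.unusedVariables false

namespace Cfsg

open MonoidAlgebra GA
open scoped ComplexConjugate

universe u v w w'

variable {p : ℕ} [hp : Fact p.Prime] {M : Ideal AlgInt} {G : Type u} [Group G] [Finite G]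
  {H : Type v} [Group H] [Finite H] {N : Type w} [Group N] [Finite N] {C : Type w'} [Group C]
  [Finite C]

theorem IsDefectGroup.exists_correspondent_emb (hM : IsPModular p M) {B : Set (IrrCharacter G)}
    (hB : IsPBlock M B) {P : Subgroup G} (hP : IsDefectGroup p M B P) {i : H →* G}
    (hi : Function.Injective i) (hK : Subgroup.normalizer (P : Set G) ≤ i.range) :
    ∃ c, Induces M i c B ∧ IsDefectGroup p M c (P.comap i) := by
  obtain ⟨c, h1, h2⟩ := hP.exists_correspondent hM hB hK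
  exact ⟨_, h1.comp_equiv hM (MonoidHom.ofInjective hi), h2.comap_equiv (MonoidHom.ofInjective hi)⟩

theorem Induces.correspondent_unique_emb (hM : IsPModular p M) {B : Set (IrrCharacter G)}
    {P : Subgroup G} {i : H →* G} (hi : Function.Injective i) {c c' : Set (IrrCharacter H)}
    (hc : Induces M i c B) (hc' : Induces M i c' B)
    (hK : Subgroup.normalizer (P : Set G) ≤ i.range) (hP : IsDefectGroup p M B P)
    (hD : IsDefectGroup p M c (P.comap i)) (hD' : IsDefectGroup p M c' (P.comap i)) : c = c' := by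
  let e := (MonoidHom.ofInjective hi).symm
  have h1 : i.comp e.toMonoidHom = i.range.subtype := by
    ext x; exact MonoidHom.apply_ofInjective_symm hi x
  have h2 : (P.comap i).comap e.toMonoidHom = P.subgroupOf i.range := by
    rw [Subgroup.comap_comap, h1]; rfl
  exact (IrrCharacter.comapEquiv e).injective.image_injective
    ((h1 ▸ hc.comp_equiv hM e).correspondent_unique hM (h1 ▸ hc'.comp_equiv hM e) hK hP
      (h2 ▸ hD.comap_equiv e) (h2 ▸ hD'.comap_equiv e))

/-- A block inducing a block over the invariant `θ` lies over constituents of `θ` of `p'`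
multiplicity. -/
theorem Induces.not_dvd_ipNat (hM : IsPModular p M) {f : N →* G} [IsNormalEmb f]
    (hN : ¬ p ∣ Nat.card N) {i : H →* G} (hi : Function.Injective i) {a : C →* H} [IsNormalEmb a]
    {j : C →* N} (hfac : ∀ c, i (a c) = f (j c)) (ha : ∀ h n, i h = f n → h ∈ a.range)
    {θ : IrrCharacter N} (hθ : inertia f θ = ⊤) {c : Set (IrrCharacter H)}
    {B : Set (IrrCharacter G)} (h : Induces M i c B) (hB : B ⊆ irrOver f {θ})
    {η : IrrCharacter H} (hη : η ∈ c) {δ : IrrCharacter C} (hδ : LiesOver a η.1 δ.1) :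
    ¬ p ∣ ipNat (θ.1 ∘ j) δ.1 := by
  classical
  letI := Fintype.ofFinite C
  have hfi := IsNormalEmb.injective (f := f)
  have hai := IsNormalEmb.injective (f := a)
  obtain ⟨χ, hχ⟩ := h.right.nonempty hM
  have hT : blockStab f {θ} = ⊤ := by rw [blockStab_singleton, hθ]
  have h1 := h.red_omega_eq hη hχ (blockIdemC_mem (irrOver f {θ}))
    ((((isPBlock_singleton_of_not_dvd hM hN θ).isBlockUnion hM).irrOver hM f).blockIdemC_mem hM)
  rw [omega_blockIdemC_of_mem (hB hχ), red_one, ← emb_blockIdemC_of_stab_eq_top hT] at h1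
  have h2 : resTo i (emb f (blockIdemC {θ})) = emb a (resTo j (blockIdemC {θ})) := by
    refine ext_coeff fun x => ?_
    by_cases hx : x ∈ a.range
    · obtain ⟨y, rfl⟩ := hx
      rw [coeff_resTo, hfac, coeff_emb_apply hfi, coeff_emb_apply hai, coeff_resTo]
    · rw [coeff_resTo, coeff_emb_of_notMem _ hx, coeff_emb_of_notMem]
      rintro ⟨n, hn⟩
      exact hx (ha x n hn.symm)
  have h3 : ∀ δ' ∈ conjOrbit a δ, charExt δ'.1 (resTo j (blockIdemC {θ})) =
      (Nat.card N : ℂ)⁻¹ * θ 1 * Nat.card C * ipNat (θ.1 ∘ j) δ.1 := by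
    intro δ' hδ'
    obtain ⟨x, rfl⟩ := mem_conjOrbit.1 hδ'
    rw [← ipNat_smul_smul (σ := conjAut f (i x)) (τ := conjAut a x) (fun c => hfi (by
      rw [← hfac, map_conjAut, map_conjAut, map_mul, map_mul, map_inv, hfac])),
      inertia_eq_top_iff.1 hθ, ipNat_comm,
      (conjAut a x • δ).isCharacter.ipNat_cast (θ.isCharacter.comp j), ip_def, mul_assoc,
      mul_inv_cancel_left₀ (Nat.cast_ne_zero.2 Nat.card_pos.ne'), charExt_apply, Finset.mul_sum]
    refine Finset.sum_congr rfl fun y _ => ?_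
    simp only [coeff_resTo, blockIdemC, coeff_ofFun, blockCoeff, finsum_mem_singleton,
      Function.comp_apply]
    ring
  have h4 := hδ.comp_eq_smul_sum_conjOrbit
  have h5 := congrFun h4 1
  have h6 : ∀ δ' ∈ conjOrbit a δ, δ'.1 1 = δ 1 := fun δ' hδ' => by
    obtain ⟨x, rfl⟩ := mem_conjOrbit.1 hδ'
    simp
  simp only [Function.comp_apply, map_one, Pi.smul_apply, Finset.sum_apply, smul_eq_mul] at h5
  rw [Finset.sum_congr rfl h6, Finset.sum_const, nsmul_eq_mul] at h5
  have h7 : (ipNat (η.1 ∘ a) δ.1 : ℂ) * (conjOrbit a δ).card ≠ 0 := fun h0 =>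
    η.apply_one_ne_zero (by rw [h5, ← mul_assoc, h0, zero_mul])
  rw [h2, omega, charExt_emb, h5, h4, charExt_smul_left, charExt_sum_left, Finset.sum_congr rfl h3,
    Finset.sum_const, nsmul_eq_mul, ← h4, ← mul_assoc, ← mul_assoc _ _ (δ.1 1),
    mul_div_mul_left _ _ h7] at h1
  intro hd
  obtain ⟨k, hk⟩ := δ.charDegree_dvd_card
  have h8 : (Nat.card N : ℂ)⁻¹ * θ 1 * Nat.card C * ipNat (θ.1 ∘ j) δ.1 / δ 1 =
      ipNat (θ.1 ∘ j) δ.1 * ((Nat.card N : ℂ)⁻¹ * θ 1 * k) := by
    rw [hk, Nat.cast_mul, ← δ.apply_one]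
    field_simp [δ.apply_one_ne_zero]
  rw [h8, red_eq_zero_of_vM_lt_one (vM_mul_lt_one ((hM.vM_natCast_lt_one_iff _).2 hd)
    (mul_mem (mul_mem (hM.inv_natCast_mem hN) (θ.mem_locO 1)) (natCast_mem _ _)))] at h1
  exact zero_ne_one h1

theorem centralizes_iff_mem_range {P K : Subgroup G} [K.Normal] (hP : IsPGroup p P)
    (hK : ¬ p ∣ Nat.card K) {i : H →* G} (hi : i.range = Subgroup.normalizer (P : Set G)) (x : K) :
    (∀ g : P, P.subtype g * K.subtype x = K.subtype x * P.subtype g) ↔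
      x ∈ ((i.comp (K.comap i).subtype).codRestrict K fun y => y.2).range := by
  constructor
  · intro h
    obtain ⟨y, hy⟩ : (x : G) ∈ i.range := hi ▸ Subgroup.centralizer_le_normalizer _
      fun g hg => h ⟨g, hg⟩
    exact ⟨⟨y, by rw [Subgroup.mem_comap, hy]; exact x.2⟩, Subtype.ext hy⟩
  · rintro ⟨y, rfl⟩ g
    have h1 : i y ∈ Subgroup.normalizer (P : Set G) := hi ▸ ⟨y, rfl⟩
    have h2 : (g : G) * (i y * (g : G)⁻¹ * (i y)⁻¹) ∈ P :=
      P.mul_mem g.2 ((Subgroup.mem_normalizer_iff.1 h1 _).1 (P.inv_mem g.2))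
    have h3 : (g : G) * (i y * (g : G)⁻¹ * (i y)⁻¹) ∈ K := by
      have := K.mul_mem (‹K.Normal›.conj_mem _ y.2 g) (K.inv_mem y.2)
      simpa [mul_assoc] using this
    have h4 : (g : G) * (i y * (g : G)⁻¹ * (i y)⁻¹) = 1 :=
      (isPElt_of_mem hP h2).eq_one_of_isPRegular (isPRegular_of_mem_of_not_dvd hK h3)
    change (g : G) * i y = i y * g
    calc (g : G) * i y = g * (i y * (g : G)⁻¹ * (i y)⁻¹) * (i y * g) := by group
      _ = _ := by rw [h4, one_mul]

theorem exists_glauberman_normalizer {P K : Subgroup G} [K.Normal] (hP : IsPGroup p P)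
    (hK : ¬ p ∣ Nat.card K) {i : H →* G} (hi : Function.Injective i)
    (hr : i.range = Subgroup.normalizer (P : Set G)) {j : K.comap i →* K}
    (hj : ∀ c, (j c : G) = i c) {θ : IrrCharacter K} (hθ : P ≤ inertia K.subtype θ) :
    ∃ δ : IrrCharacter (K.comap i), ¬ p ∣ ipNat (θ.1 ∘ j) δ.1 ∧
      (∀ δ' : IrrCharacter (K.comap i), ¬ p ∣ ipNat (θ.1 ∘ j) δ'.1 → δ' = δ) ∧
      ∀ h, i h ∈ inertia K.subtype θ ↔ h ∈ inertia (K.comap i).subtype δ := by
  have hj0 : ((i.comp (K.comap i).subtype).codRestrict K fun y => y.2) = j :=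
    MonoidHom.ext fun c => Subtype.ext (hj c).symm
  have hji : Function.Injective j := fun x y h => Subtype.ext (hi (by rw [← hj, ← hj, h]))
  have hj' := centralizes_iff_mem_range hP hK hr
  rw [hj0] at hj'
  have hgl := isGlaub_of_pGroup hp.out ((conjAut K.subtype).comp P.subtype) (fun s => by
      obtain ⟨k, hk⟩ := hP s
      exact ⟨k, by rw [← map_pow, hk, map_one]⟩) hK hji fun x => by
    rw [← hj']
    exact forall_congr' fun g => by
      rw [MonoidHom.comp_apply, conjAut_eq_iff, eq_mul_inv_iff_mul_eq, eq_comm]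
  have hθP : ∀ s, ((conjAut K.subtype).comp P.subtype) s • θ = θ := fun s =>
    mem_inertia.1 (hθ s.2)
  obtain ⟨δ, hδ⟩ := hgl.exists_rel hp.out hθP
  refine ⟨δ, hδ, fun δ' h' => hgl.right_unique hθP h' hδ, fun h => ?_⟩
  have h2 : ∀ s : P, conjAut K.subtype s • conjAut K.subtype (i h) • θ =
      conjAut K.subtype (i h) • θ := fun s => by
    have h1 : i h ∈ Subgroup.normalizer (P : Set G) := hr ▸ ⟨h, rfl⟩
    have := mem_inertia.1 (hθ ((Subgroup.mem_normalizer_iff''.1 h1 _).1 s.2))
    rwa [map_mul, map_mul, map_inv, mul_smul, mul_smul, inv_smul_eq_iff] at this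
  rw [mem_inertia, mem_inertia]
  refine hgl.smul_eq_iff (fun c => Subtype.ext ?_) hθP h2 hδ
  have h3 := map_conjAut K.subtype (i h) (j c)
  have h4 := map_conjAut (K.comap i).subtype h c
  rw [Subgroup.subtype_apply, Subgroup.subtype_apply] at h3 h4
  rw [h3, hj, hj, h4, map_mul, map_mul, map_inv]

theorem IsPSolvable.exists_isPerfectIsometry (hM : IsPModular p M) (n : ℕ) :
    ∀ (G : Type u) [Group G] [Finite G], Nat.card G = n → IsPSolvable p G →
    ∀ (B : Set (IrrCharacter G)) (P : Subgroup G), IsDefectGroup p M B P →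
    (∀ x ∈ P, ∀ y ∈ P, x * y = y * x) → ∀ (H : Type u) [Group H] [Finite H] (i : H →* G),
    Function.Injective i → i.range = Subgroup.normalizer (P : Set G) →
    ∀ c, IsDefectGroup p M c (P.comap i) → Induces M i c B →
    ∃ I ε, IsPerfectIsometry p M c B I ε := by
  induction n using Nat.strong_induction_on with
  | _ n ih =>
  intro G _ _ hn hG B P hP hPab H _ _ i hi hr c hcD hc
  have hB := hc.right
  set K := pPrimeCore p G
  have hK : ¬ p ∣ Nat.card K := not_dvd_card_pPrimeCore p G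
  obtain ⟨b, hb, hcov⟩ := hB.exists_covers_below hM K.subtype
  obtain ⟨θ, hθ⟩ := hb.nonempty hM
  obtain rfl : b = {θ} := hb.eq_of_mem (isPBlock_singleton_of_not_dvd hM hK θ) hM hθ rfl
  set T := blockStab K.subtype {θ}
  have hfac : ∀ n, T.subtype (toBlockStab K.subtype {θ} n) = K.subtype n := fun _ => rfl
  have hle : blockStab K.subtype {θ} ≤ T.subtype.range := by rw [Subgroup.range_subtype]
  obtain ⟨B', hB', hcov', rfl⟩ := fr_surjective hM T.subtype_injective hfac hb hle hB hcov
  obtain ⟨D, hD⟩ := hB'.exists_isDefectGroup hM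
  have hD' := fr_isDefectGroup hM T.subtype_injective hfac hb hle hB' hcov' hD
  wlog hPD : P = D.map T.subtype generalizing P i
  · obtain ⟨g, hg⟩ := hP.exists_conj hB hM hD'
    refine this _ ?_ ((MulAut.conj g).toMonoidHom.comp i) ((MulAut.conj g).injective.comp hi)
      ?_ ?_ hD' (hc.congr fun x => isConj_iff.2 ⟨g, rfl⟩) rfl
    · rw [← hg]
      rintro _ ⟨x, hx, rfl⟩ _ ⟨y, hy, rfl⟩
      rw [← map_mul, hPab x hx y hy, map_mul]
    · rw [← MonoidHom.map_range, hr, ← hg, normalizer_map_conj]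
    · rwa [← hg, ← Subgroup.comap_comap, Subgroup.comap_map_eq_self_of_injective
        (MulAut.conj g).injective]
  have hPT : P ≤ T := hPD ▸ Subgroup.map_subtype_le D
  have hDP : D = P.comap T.subtype := by
    rw [hPD, Subgroup.comap_map_eq_self_of_injective T.subtype_injective]
  let C := K.comap i
  let j : C →* K := (i.comp C.subtype).codRestrict K fun y => y.2
  have hji : Function.Injective j := fun x y h => Subtype.ext (hi (congrArg Subtype.val h))
  have hC : ¬ p ∣ Nat.card C := fun h => hK (h.trans (Subgroup.card_dvd_of_injective j hji))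
  have hj := centralizes_iff_mem_range hP.isPGroup hK hr
  obtain ⟨δ, hδ, hδu, hst⟩ := exists_glauberman_normalizer hP.isPGroup hK hi hr (j := j)
    (fun _ => rfl) (hPT.trans (blockStab_singleton K.subtype θ).le)
  have hb' := isPBlock_singleton_of_not_dvd hM hC δ
  have hBθ : B' ⊆ irrOver (toBlockStab K.subtype {θ}) {θ} :=
    hcov'.subset_irrOver hM hB' (hb.isBlockUnion hM)
  have hθT : inertia (toBlockStab K.subtype {θ}) θ = ⊤ := by
    rw [← blockStab_singleton, blockStab_toBlockStab]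
  by_cases hT : T = ⊤
  · have hθ' : inertia K.subtype θ = ⊤ := by rw [← blockStab_singleton]; exact hT
    have hB1 := hG.isPBlock_irrOver hM (Subgroup.range_subtype _) hθ'
    have hB2 := hcov.eq_irrOver hM hB hB1
    have hδ' : inertia C.subtype δ = ⊤ := eq_top_iff.2 fun h _ =>
      (hst h).1 (hθ' ▸ Subgroup.mem_top _)
    rw [hB2] at hP hc ⊢
    obtain ⟨S, rfl⟩ := (isDefectGroup_irrOver_singleton_iff hM hK hθ' hB1 P).1 hP
    have hSK : (S : Subgroup G) ⊔ K = pPrimePCore p G := by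
      refine le_antisymm (sup_le (fun x hx => hG.centralizer_sylow_le S fun y hy => hPab y hy x hx)
        pPrimeCore_le_pPrimePCore) ?_
      rw [sup_comm]
      exact hasNormalPComplement_pPrimePCore.le_pPrimeCore_sup S
    have hN : K ⊔ i.range = ⊤ := by
      rw [hr, ← normalizer_sup_sylow, sup_comm, hSK, Subgroup.normalizer_eq_top]
    have hn : ((S : Subgroup G).comap i).Normal := ⟨fun x hx y => by
      have h1 : i y ∈ Subgroup.normalizer ((S : Subgroup G) : Set G) := hr ▸ ⟨y, rfl⟩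
      rw [Subgroup.mem_comap, map_mul, map_mul, map_inv]
      exact (Subgroup.mem_normalizer_iff.1 h1 _).1 hx⟩
    have hc1 : IsPBlock M (irrOver C.subtype {δ}) := by
      haveI : ((S : Subgroup G).comap i ⊔ C.subtype.range).Normal := inferInstance
      refine isPBlock_irrOver_of_constrained hM hC hδ' (S.2.comap_of_injective i hi) fun x hx => ?_
      have h1 : i x ∈ (S : Subgroup G) ⊔ K := hSK ▸ hG.centralizer_sylow_le S fun y hy => by
        obtain ⟨z, rfl⟩ : y ∈ i.range := hr ▸ Subgroup.le_normalizer hy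
        rw [← map_mul, ← map_mul, hx z hy]
      obtain ⟨s, hs, k, hk, h2⟩ := Subgroup.mem_sup_of_normal_right.1 h1
      obtain ⟨z, rfl⟩ : s ∈ i.range := hr ▸ Subgroup.le_normalizer hs
      rw [← mul_inv_cancel_left z x]
      refine Subgroup.mul_mem_sup hs ⟨⟨z⁻¹ * x, ?_⟩, rfl⟩
      rw [Subgroup.mem_comap, map_mul, map_inv, ← h2, inv_mul_cancel_left]
      exact hk
    obtain ⟨η, hη⟩ := hc.left.nonempty hM
    obtain ⟨δ', hηδ⟩ := η.exists_liesOver_below C.subtype
    obtain rfl : δ' = δ := hδu _ (hc.not_dvd_ipNat hM hK hi (j := j) (fun _ => rfl)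
      (fun h n hn => ⟨⟨h, by rw [Subgroup.mem_comap, hn]; exact n.2⟩, rfl⟩) hθ' le_rfl hη hηδ)
    rw [hc.left.eq_of_mem hc1 hM hη (mem_irrOver_singleton.2 hηδ)]
    letI : CommGroup S := { (inferInstance : Group S) with
      mul_comm := fun x y => Subtype.ext (hPab _ x.2 _ y.2) }
    refine exists_isPerfectIsometry_glauberman hM (D := S) S.2 (S : Subgroup G).subtype_injective
      hK hi (fun g => ?_) (α := (S : Subgroup G).normalizerMonoidHom.comp
        (i.codRestrict _ fun h => hr ▸ ⟨h, rfl⟩)) (fun h g => ?_) (j := j) (fun _ => rfl) hj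
      (fun h n hn => ⟨⟨h, by rw [Subgroup.mem_comap, hn]; exact n.2⟩, rfl⟩) hθ' hδ' hδ
    · obtain ⟨k, hk, _, ⟨h, rfl⟩, h1⟩ := Subgroup.mem_sup_of_normal_left.1
        (hN ▸ Subgroup.mem_top g)
      exact ⟨⟨k, hk⟩, h, h1.symm⟩
    · change _ = i h * g * (i h)⁻¹ * i h
      simp
  let L := T.comap i
  let l : L →* T := (i.comp L.subtype).codRestrict T fun y => y.2
  have hli : Function.Injective l := fun x y h => Subtype.ext (hi (congrArg Subtype.val h))
  have hlr : l.range = Subgroup.normalizer (D : Set T) := by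
    rw [hDP, Subgroup.comap_subtype, ← Subgroup.subgroupOf_normalizer_eq hPT, ← hr]
    ext x
    refine ⟨fun ⟨y, hy⟩ => ⟨y, congrArg Subtype.val hy⟩, fun ⟨y, hy⟩ => ⟨⟨y, ?_⟩, Subtype.ext hy⟩⟩
    rw [Subgroup.mem_comap, hy]; exact x.2
  obtain ⟨c', hc', hcD'⟩ := hD.exists_correspondent_emb hM hB' hli hlr.ge
  obtain ⟨I, ε, hI⟩ := ih _ (hn ▸ lt_of_le_of_ne (Subgroup.card_le_card_group _)
    fun h => hT (Subgroup.eq_top_of_card_eq _ h)) T rfl (hG.to_subgroup _) B' D hD
    (fun x hx y hy => Subtype.ext (hPab _ (hDP ▸ hx :) _ (hDP ▸ hy :))) L l hli hlr c' hcD' hc'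
  have hCL : C ≤ L := Subgroup.comap_mono fun x hx => range_le_blockStab _ _ ⟨⟨x, hx⟩, rfl⟩
  have hle' : blockStab C.subtype {δ} ≤ L.subtype.range := by
    rw [Subgroup.range_subtype, blockStab_singleton]
    intro h hh
    rw [Subgroup.mem_comap]
    exact (blockStab_singleton K.subtype θ).ge ((hst h).2 hh)
  have hcδ : c' ⊆ irrOver (Subgroup.inclusion hCL) {δ} := fun η hη => by
    obtain ⟨δ', hδ'⟩ := η.exists_liesOver_below (Subgroup.inclusion hCL)
    obtain rfl : δ' = δ := hδu _ (hc'.not_dvd_ipNat hM hK hli (j := j) (fun _ => rfl)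
      (fun h n hn => ⟨⟨h, by
        rw [Subgroup.mem_comap, show i h = n from congrArg Subtype.val hn]; exact n.2⟩, rfl⟩)
      hθT hBθ hη hδ')
    exact mem_irrOver_singleton.2 hδ'
  have hcov2 := covers_of_subset_irrOver hcδ (hc'.left.nonempty hM)
  have h1 := fr_induces hM L.subtype_injective (f := C.subtype) (fun _ => rfl) hb' hle' hc'.left hcov2
  have h2 := hc'.trans hM (fr_induces hM T.subtype_injective hfac hb hle hB' hcov')
  have h3 := fr_isDefectGroup hM L.subtype_injective (f := C.subtype) (fun _ => rfl) hb' hle'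
    hc'.left hcov2 hcD'
  have h4 : (D.comap l).map L.subtype = P.comap i := by
    rw [hDP]
    ext x
    exact ⟨fun ⟨y, hy, h⟩ => h ▸ hy, fun hx => ⟨⟨x, hPT hx⟩, hx, rfl⟩⟩
  rw [hc.correspondent_unique_emb hM hi (h1.of_trans hM (f := i) h2) hr.ge hP hcD (h4 ▸ h3)]
  exact hI.fongReynolds hM T.subtype_injective hfac hb hle hBθ L.subtype_injective
    (f' := C.subtype) (fun _ => rfl) hb' hle' hcδ

end Cfsg
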