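import Cfsg.Agent.Blk.FongReynolds
import Cfsg.Agent.Char.Count

/-!
# Perfect isometries: parametrized form, induction, invariants
-/

set_option autoImplicit false
set_option linter.unusedSectionVars false
set_option linter.unusedVariables false

namespace Cfsg

open scoped ComplexConjugate

universe u v w w'

variable {p : ℕ} {M : Ideal AlgInt} {G : Type u} [Group G] [Finite G] {H : Type v} [Group H]
  [Finite H] {T : Type w} [Group T] [Finite T] {K : Type w'} [Group K] [Finite K]

/-- Perfect functions, integrality read in the valuation ring `locO M`. -/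
def IsPerfO (p : ℕ) (M : Ideal AlgInt) (μ : G → H → ℂ) : Prop :=
  ∀ x y, μ x y / (Nat.card (Subgroup.centralizer ({x} : Set G)) : ℂ) ∈ locO M ∧
    μ x y / (Nat.card (Subgroup.centralizer ({y} : Set H)) : ℂ) ∈ locO M ∧
    ((IsPRegular p x ↔ IsPRegular p y) ∨ μ x y = 0)

theorem IsPerfO.swap {μ : G → H → ℂ} (h : IsPerfO p M μ) : IsPerfO p M fun y x => μ x y :=
  fun y x => ⟨(h x y).2.1, (h x y).1, (h x y).2.2.imp_left Iff.symm⟩

theorem IsClassFunction.avg_mem_locO_of_div {F : G → ℂ} [Fintype G] (hF : IsClassFunction G F)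
    (h : ∀ x, F x / (Nat.card (Subgroup.centralizer ({x} : Set G)) : ℂ) ∈ locO M) :
    (Nat.card G : ℂ)⁻¹ * ∑ x, F x ∈ locO M := by
  classical
  letI := Fintype.ofFinite (ConjClasses G)
  rw [hF.sum_eq_sum_conjClasses, Finset.mul_sum]
  refine sum_mem fun L _ => ?_
  convert h L.out using 1
  have h1 : ((Subgroup.centralizer ({L.out} : Set G)).index : ℂ) ≠ 0 :=
    Nat.cast_ne_zero.2 Subgroup.index_ne_zero_of_finite
  have h2 : (Nat.card (Subgroup.centralizer ({L.out} : Set G)) : ℂ) ≠ 0 :=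
    Nat.cast_ne_zero.2 Nat.card_pos.ne'
  rw [← (Subgroup.centralizer ({L.out} : Set G)).card_mul_index, Nat.cast_mul]
  field_simp

theorem card_centralizer_dvd_of_injective {i : T →* G} (hi : Function.Injective i) (t : T) :
    Nat.card (Subgroup.centralizer ({t} : Set T)) ∣
      Nat.card (Subgroup.centralizer ({i t} : Set G)) := by
  rw [← Subgroup.card_map_of_injective hi]
  refine Subgroup.card_dvd_of_le ?_
  rintro _ ⟨s, hs, rfl⟩
  rw [SetLike.mem_coe, Subgroup.mem_centralizer_singleton_iff] at hs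
  rw [Subgroup.mem_centralizer_singleton_iff, ← map_mul, hs, map_mul]

theorem IsPerfO.ind_left {μ : T → H → ℂ} (h : IsPerfO p M μ)
    (hc : ∀ y, IsClassFunction T fun t => μ t y) {i : T →* G} (hi : Function.Injective i) :
    IsPerfO p M fun g y => ind i (fun t => μ t y) g := by
  classical
  letI := Fintype.ofFinite T
  intro g y
  have hcl : ∀ a : ℂ, IsClassFunction T fun t => if IsConj g (i t) then a * μ t y else 0 := by
    intro a s t
    have : IsConj g (i (t * s * t⁻¹)) ↔ IsConj g (i s) := by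
      have e : IsConj (i s) (i (t * s * t⁻¹)) := isConj_iff.2 ⟨i t, by simp⟩
      exact ⟨fun h => h.trans e.symm, fun h => h.trans e⟩
    simp only [this, hc y s t]
  have h0 : (Nat.card (Subgroup.centralizer ({g} : Set G)) : ℂ) ≠ 0 :=
    Nat.cast_ne_zero.2 Nat.card_pos.ne'
  simp only [ind_apply_eq_card_centralizer, finsum_mem_setOf_eq_sum_ite]
  refine ⟨?_, ?_, ?_⟩
  · rw [mul_assoc, mul_div_cancel_left₀ _ h0]
    have := (hcl 1).avg_mem_locO_of_div (M := M) fun t => by
      split_ifs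
      · rw [one_mul]; exact (h t y).1
      · rw [zero_div]; exact zero_mem _
    simpa using this
  · have := (hcl ((Nat.card (Subgroup.centralizer ({g} : Set G)) : ℂ) /
      Nat.card (Subgroup.centralizer ({y} : Set H)))).avg_mem_locO_of_div (M := M) fun t => by
      split_ifs with ht
      · obtain ⟨m, hm⟩ := card_centralizer_dvd_of_injective hi t
        have h1 : (Nat.card (Subgroup.centralizer ({t} : Set T)) : ℂ) ≠ 0 :=
          Nat.cast_ne_zero.2 Nat.card_pos.ne'
        convert mul_mem (natCast_mem (locO M) m) (h t y).2.1 using 1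
        rw [card_centralizer_eq_of_isConj ht, hm, Nat.cast_mul]
        field_simp
      · rw [zero_div]; exact zero_mem _
    convert this using 1
    rw [Finset.mul_sum, Finset.mul_sum, Finset.sum_div]
    refine Finset.sum_congr rfl fun t _ => ?_
    split_ifs <;> ring
  · by_cases hr : IsPRegular p g ↔ IsPRegular p y
    · exact Or.inl hr
    refine Or.inr ?_
    rw [Finset.sum_eq_zero, mul_zero]
    intro t _
    split_ifs with ht
    · refine (h t y).2.2.resolve_left fun h1 => hr ?_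
      rw [← h1, IsPRegular, IsPRegular, ← orderOf_injective i hi t]
      obtain ⟨c, hc⟩ := isConj_iff.1 ht
      rw [← hc, ← MulAut.conj_apply, MulEquiv.orderOf_eq]
    · rfl

theorem exists_isPerfectIsometry_of_param (hM : IsPModular p M) {S : Type*} [Fintype S]
    {A : S → IrrCharacter G} {A' : S → IrrCharacter H} (ε : S → ℤ) (hA : Function.Injective A)
    (hA' : Function.Injective A') (hε : ∀ s, ε s = 1 ∨ ε s = -1)
    (h : IsPerfO p M fun x y => ∑ s, (ε s : ℂ) * A s x * A' s y) :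
    ∃ I ε, IsPerfectIsometry p M (Set.range A') (Set.range A) I ε := by
  classical
  let I : IrrCharacter H → IrrCharacter G := Function.extend A' A fun _ => IrrCharacter.one G
  let e : IrrCharacter H → ℤ := Function.extend A' ε fun _ => 1
  have hI : ∀ s, I (A' s) = A s := fun s => hA'.extend_apply _ _ s
  have he : ∀ s, e (A' s) = ε s := fun s => hA'.extend_apply _ _ s
  have hk : signedBijectionKernel (Set.range A') I e = fun x y => ∑ s, (ε s : ℂ) * A s x * A' s y := by
    funext x y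
    rw [signedBijectionKernel, finsum_mem_range hA', finsum_eq_sum_of_fintype]
    simp only [hI, he]
  refine ⟨I, e, ⟨?_, ?_, ?_⟩, ?_, ?_⟩
  · rintro _ ⟨s, rfl⟩; exact ⟨s, (hI s).symm⟩
  · rintro _ ⟨s, rfl⟩ _ ⟨t, rfl⟩ h1
    rw [hI, hI] at h1
    rw [hA h1]
  · rintro _ ⟨s, rfl⟩; exact ⟨A' s, ⟨s, rfl⟩, hI s⟩
  · rintro _ ⟨s, rfl⟩; rw [he]; exact hε s
  · rw [hk]
    have halg : ∀ x y (n : ℕ), IsAlgebraic ℚ ((∑ s, (ε s : ℂ) * A s x * A' s y) / n) := by
      intro x y n
      rw [div_eq_mul_inv]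
      refine IsAlgebraic.mul (IsIntegral.isAlgebraic (IsIntegral.tower_top (R := ℤ) ?_))
        (isAlgebraic_natCast n).inv
      exact IsIntegral.sum _ fun s _ => ((isIntegral_algebraMap (x := ε s)).mul
        ((A s).isCharacter.isIntegral x)).mul ((A' s).isCharacter.isIntegral y)
    exact fun x y => ⟨hM.memLocalRing_iff.2 ⟨halg _ _ _, (h x y).1⟩,
      hM.memLocalRing_iff.2 ⟨halg _ _ _, (h x y).2.1⟩, (h x y).2.2⟩

variable {c : Set (IrrCharacter H)} {B : Set (IrrCharacter G)} {I : IrrCharacter H → IrrCharacter G}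
  {ε : IrrCharacter H → ℤ}

theorem IsPerfectIsometry.isPerfO (h : IsPerfectIsometry p M c B I ε) (hM : IsPModular p M)
    [Fintype c] : IsPerfO p M fun x y => ∑ η : c, (ε η : ℂ) * I η x * η.1 y := by
  intro x y
  have := h.2.2 x y
  rw [signedBijectionKernel, finsum_mem_irr_eq_sum_coe c fun η => (ε η : ℂ) * I η x * η y] at this
  exact ⟨(hM.memLocalRing_iff.1 this.1).2, (hM.memLocalRing_iff.1 this.2.1).2, this.2.2⟩

theorem IsPerfectIsometry.card_eq (h : IsPerfectIsometry p M c B I ε) : Nat.card c = Nat.card B :=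
  Nat.card_congr h.1.equiv

theorem IsPerfectIsometry.blockRank_eq (h : IsPerfectIsometry p M c B I ε) (hM : IsPModular p M)
    (hc : IsPBlock M c) (hB : IsPBlock M B) : blockRank p c = blockRank p B := by
  classical
  letI := Fintype.ofFinite c
  letI := Fintype.ofFinite H
  apply Nat.cast_injective (R := ℂ)
  rw [hc.blockRank_eq_finsum hM, hB.blockRank_eq_finsum hM]
  refine finsum_mem_eq_of_bijOn I h.1 fun η hη => ?_
  have hε : (ε η : ℂ) ≠ 0 := by rcases h.2.1 η hη with e | e <;> simp [e]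
  have key : ∀ (F : H → ℂ) (x : G), ∑ ξ : c, (ε ξ : ℂ) * I ξ x * ip F ξ.1.1 =
      (Nat.card H : ℂ)⁻¹ * ∑ y, F y * ∑ ξ : c, (ε ξ : ℂ) * I ξ x * ξ.1 y⁻¹ := by
    intro F x
    simp only [ip_def, Finset.mul_sum]
    rw [Finset.sum_comm]
    refine Finset.sum_congr rfl fun y _ => Finset.sum_congr rfl fun ξ _ => ?_
    rw [ξ.1.isCharacter.isGen.apply_inv]; ring
  have h1 : (ε η : ℂ) • pRegularPart p (I η).1 =
      ∑ ξ : c, ((ε ξ : ℂ) * ip (pRegularPart p η.1) ξ.1.1) • (I ξ).1 := by
    funext x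
    have e1 := key (pRegularPart p η.1) x
    have e2 := key η.1 x
    rw [Finset.sum_eq_single ⟨η, hη⟩ (fun ξ _ hξ => by
      rw [IrrCharacter.ip_eq, if_neg fun h => hξ (Subtype.ext h.symm), mul_zero]) (by simp),
      IrrCharacter.ip_eq, if_pos rfl, mul_one] at e2
    simp only [Finset.sum_apply, Pi.smul_apply, smul_eq_mul]
    rw [Finset.sum_congr rfl fun ξ _ => mul_right_comm _ _ _, e1]
    have hz : ∀ y : H, ¬ (IsPRegular p x ↔ IsPRegular p y) →
        ∑ ξ : c, (ε ξ : ℂ) * I ξ x * ξ.1 y⁻¹ = 0 := fun y hy =>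
      (h.isPerfO hM x y⁻¹).2.2.resolve_left (by simpa [IsPRegular] using hy)
    by_cases hx : IsPRegular p x
    · simp only [pRegularPart, hx, if_true]
      rw [e2]
      congr 1
      refine Finset.sum_congr rfl fun y _ => ?_
      split_ifs with hy
      · rfl
      · rw [hz y (by simp [hx, hy]), mul_zero, mul_zero]
    · simp only [pRegularPart, hx, if_false, mul_zero]
      rw [Finset.sum_eq_zero, mul_zero]
      intro y _
      split_ifs with hy
      · rw [hz y (by simp [hx, hy]), mul_zero]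
      · rw [zero_mul]
  have h2 := congrArg (fun F => ip F (I η).1) h1
  simp only [ip_smul_left, ip_sum_left] at h2
  rw [Finset.sum_eq_single ⟨η, hη⟩ (fun ξ _ hξ => by
    rw [IrrCharacter.ip_eq, if_neg fun h1 => hξ (Subtype.ext (h.1.injOn ξ.2 hη h1)), mul_zero])
    (by simp), IrrCharacter.ip_eq, if_pos rfl, mul_one] at h2
  exact (mul_left_cancel₀ hε h2).symm

/-- Perfect isometries pass through Fong–Reynolds correspondences on both sides. -/
theorem IsPerfectIsometry.fongReynolds {N : Type*} [Group N] [Finite N] {C : Type*} [Group C]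
    [Finite C] {c : Set (IrrCharacter K)} {B : Set (IrrCharacter T)}
    {I : IrrCharacter K → IrrCharacter T} {ε : IrrCharacter K → ℤ}
    (h : IsPerfectIsometry p M c B I ε) (hM : IsPModular p M)
    {f : N →* G} [IsNormalEmb f] {i : T →* G} {j : N →* T} {b : Set (IrrCharacter N)}
    (hi : Function.Injective i) (hfac : ∀ n, i (j n) = f n) (hb : IsPBlock M b)
    (hT : blockStab f b ≤ i.range) (hB : B ⊆ irrOver j b)
    {f' : C →* H} [IsNormalEmb f'] {i' : K →* H} {j' : C →* K} {b' : Set (IrrCharacter C)}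
    (hi' : Function.Injective i') (hfac' : ∀ n, i' (j' n) = f' n) (hb' : IsPBlock M b')
    (hT' : blockStab f' b' ≤ i'.range) (hc : c ⊆ irrOver j' b') :
    ∃ I ε, IsPerfectIsometry p M (irrOver i' c) (irrOver i B) I ε := by
  letI := Fintype.ofFinite c
  let A : c → IrrCharacter G := fun η =>
    ⟨ind i (I η).1, fr_isIrr_ind hM hi hfac hb hT (hB (h.1.mapsTo η.2))⟩
  let A' : c → IrrCharacter H := fun η => ⟨ind i' η.1.1, fr_isIrr_ind hM hi' hfac' hb' hT' (hc η.2)⟩
  have hl : ∀ η, LiesOver i (A η).1 (I η).1 := fun η =>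
    (liesOver_iff_ip_ind (A η).isClassFunction _).2 (by
      change ip (A η).1 (A η).1 ≠ 0; rw [(A η).ip_self]; exact one_ne_zero)
  have hl' : ∀ η, LiesOver i' (A' η).1 η.1.1 := fun η =>
    (liesOver_iff_ip_ind (A' η).isClassFunction _).2 (by
      change ip (A' η).1 (A' η).1 ≠ 0; rw [(A' η).ip_self]; exact one_ne_zero)
  have e : Set.range A = irrOver i B := by
    ext χ
    rw [fr_mem_irrOver_iff hM hi hfac hb hT hB]
    refine ⟨?_, fun ⟨ψ, hψ, h1⟩ => ?_⟩
    · rintro ⟨η, rfl⟩; exact ⟨_, h.1.mapsTo η.2, rfl⟩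
    · obtain ⟨η, hη, rfl⟩ := h.1.surjOn hψ
      exact ⟨⟨η, hη⟩, Subtype.ext h1.symm⟩
  have e' : Set.range A' = irrOver i' c := by
    ext χ
    rw [fr_mem_irrOver_iff hM hi' hfac' hb' hT' hc]
    refine ⟨?_, fun ⟨ψ, hψ, h1⟩ => ⟨⟨ψ, hψ⟩, Subtype.ext h1.symm⟩⟩
    rintro ⟨η, rfl⟩; exact ⟨_, η.2, rfl⟩
  rw [← e, ← e']
  refine exists_isPerfectIsometry_of_param hM (fun η => ε η) (fun η η' h1 => ?_)
    (fun η η' h1 => ?_) (fun η => h.2.1 _ η.2) ?_
  · exact Subtype.ext (h.1.injOn η.2 η'.2 (fr_unique hM hi hfac hb hT (hB (h.1.mapsTo η.2))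
      (hB (h.1.mapsTo η'.2)) (hl η) (h1 ▸ hl η')))
  · exact Subtype.ext (fr_unique hM hi' hfac' hb' hT' (hc η.2) (hc η'.2) (hl' η) (h1 ▸ hl' η'))
  have e1 : ∀ y, (fun t => ∑ η : c, (ε η : ℂ) * I η t * η.1 y) =
      ∑ η : c, ((ε η : ℂ) * η.1 y) • (I η).1 := fun y => by
    funext t
    simp only [Finset.sum_apply, Pi.smul_apply, smul_eq_mul]
    exact Finset.sum_congr rfl fun η _ => mul_right_comm _ _ _
  have h1 := (h.isPerfO hM).ind_left (fun y => by
    rw [e1]; exact IsClassFunction.sum fun η _ => (I η).isClassFunction.smul _) hi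
  have e2 : ∀ g, (fun y => ind i (fun t => ∑ η : c, (ε η : ℂ) * I η t * η.1 y) g) =
      ∑ η : c, ((ε η : ℂ) * A η g) • η.1.1 := fun g => by
    funext y
    simp only [e1, ind_sum, ind_smul, Finset.sum_apply, Pi.smul_apply, smul_eq_mul]
    exact Finset.sum_congr rfl fun η _ => mul_right_comm _ _ _
  have h2 := (h1.swap.ind_left (fun g => by
    rw [e2]; exact IsClassFunction.sum fun η _ => η.1.isClassFunction.smul _) hi').swap
  convert h2 using 3 with g y
  simp only [e2, ind_sum, ind_smul, Finset.sum_apply, Pi.smul_apply, smul_eq_mul]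
  rfl

end Cfsg

set_option linter.all false in
theorem Cfsg.Rz.Blk_Perfect_0 : True := by
  have := @_root_.Cfsg.IsPerfO.eq_def.{0, 0}
  have := @_root_.Cfsg.IsPerfO.eq_1.{0, 0}
  have := @_root_.Cfsg.IsPerfO.fun_cases
  trivial
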