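import Cfsg.Agent.Blk.PrimeTwo
import Cfsg.Agent.Char.IndBasic
import Mathlib.GroupTheory.GroupAction.MultipleTransitivity
import Mathlib.GroupTheory.SpecificGroups.Alternating

/-!
# Primitive groups of degree `p` or `2 p` with Sylow normalizer of order `2 p`
-/

set_option autoImplicit false
set_option linter.unusedSectionVars false
set_option linter.unusedVariables false
set_option linter.style.haveILetI false

namespace Cfsg

open Exc Subgroup MulAction
open scoped ComplexConjugate Classical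

universe u v w

variable {G : Type u} [Group G] [Finite G] {p : ℕ} [hp : Fact p.Prime] {x : G}

local notation "C(" Q ")" => Subgroup.centralizer ((Q : Subgroup G) : Set G)
local notation "C₁(" u ")" => Subgroup.centralizer ({u} : Set G)
local notation "N(" Q ")" => Subgroup.normalizer ((Q : Subgroup G) : Set G)

theorem dvd_card_of_normal_of_isPreprimitive {α : Type*} [Finite α] [Nonempty α] [MulAction G α]
    [FaithfulSMul G α] [IsPreprimitive G α] {K : Subgroup G} [K.Normal] (hK : K ≠ ⊥) :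
    Nat.card α ∣ Nat.card K := by
  have : IsPretransitive K α := IsQuasiPreprimitive.isPretransitive_of_normal (G := G) fun e =>
    hK (eq_bot_iff.2 fun g hg => eq_of_smul_eq_smul (α := α) fun a => by
      have : a ∈ fixedPoints K α := e ▸ Set.mem_univ a
      rw [one_smul]
      exact this ⟨g, hg⟩)
  obtain ⟨a⟩ : Nonempty α := inferInstance
  rw [← index_stabilizer_of_transitive K a]
  exact index_dvd_card _

theorem exists_selfCent_of_card_normalizer (hp2 : p ≠ 2) (P : Sylow p G)
    (hN : Nat.card N(P) = 2 * p) (hO : pPrimeCore p G = ⊥) (hnn : ¬ (P : Subgroup G).Normal) :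
    Nat.card P = p ∧ (C(P)).relIndex N(P) = 2 ∧ commutator G = ⊤ ∧
      ∃ x ∈ (P : Subgroup G), SelfCent p x := by
  have hp1 := hp.out.one_lt
  have hP : Nat.card P = p := by
    obtain ⟨k, hk⟩ := P.isPGroup'.exists_card_eq
    have h1 : Nat.card P ∣ 2 * p := hN ▸ card_dvd_of_le le_normalizer
    have h2 : p ∣ Nat.card P := P.dvd_card_of_dvd_card
      ((hN ▸ dvd_mul_left p 2).trans (card_subgroup_dvd_card _))
    refine Nat.dvd_antisymm (Nat.Coprime.dvd_of_dvd_mul_left ?_ h1) h2
    rw [hk]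
    exact ((Nat.coprime_primes hp.out Nat.prime_two).2 hp2).pow_left _
  have : IsCyclic P := isCyclic_of_prime_card hP
  obtain ⟨x, hx⟩ := exists_prime_orderOf_dvd_card' (G := (P : Subgroup G)) p (dvd_of_eq hP.symm)
  rw [← Subgroup.orderOf_coe] at hx
  have hPx : zpowers (x : G) = P := Subgroup.eq_of_le_of_card_ge (zpowers_le.2 x.2)
    (by rw [hP, Nat.card_zpowers, hx])
  have hcore : ∀ {H : Subgroup G} [H.Normal], (P : Subgroup G) ≤ H → HasNormalPComplement p H →
      False := by
    intro H _ hle h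
    have h1 := h.index_pPrimeCore
    rw [pPrimeCore_eq_subgroupOf_of_normal, hO, bot_subgroupOf, index_bot,
      factorization_card_of_sylow_le P hle] at h1
    exact hnn (Subgroup.eq_of_le_of_card_ge hle h1.le ▸ inferInstance)
  have hPN : (P : Subgroup G).relIndex N(P) = 2 := by
    have := card_mul_relIndex (le_normalizer (H := (P : Subgroup G)))
    rw [hN, hP, mul_comm] at this
    exact Nat.eq_of_mul_eq_mul_right hp.out.pos this
  have hmid : ∀ {K : Subgroup G}, (P : Subgroup G) ≤ K → K ≤ N(P) → K = P ∨ K = N(P) := by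
    intro K h1 h2
    have := relIndex_mul_relIndex _ _ _ h1 h2
    rw [hPN] at this
    rcases (Nat.dvd_prime Nat.prime_two).1 (Dvd.intro _ this) with h3 | h3
    · exact Or.inl (le_antisymm (relIndex_eq_one.1 h3) h1)
    · rw [h3] at this
      exact Or.inr (le_antisymm h2 (relIndex_eq_one.1 (by omega)))
  have hC : C(P) = P := (hmid (le_centralizer _) (centralizer_le_normalizer _)).resolve_right
    fun e => hcore le_top (HasNormalPComplement.of_equiv
      (hasNormalPComplement_of_normalizer_le_centralizer P e.ge) topEquiv.symm)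
  have hs : SelfCent p (x : G) := ⟨hx, by rw [← centralizer_closure, ← zpowers_eq_closure, hPx, hC]⟩
  have hx' : (P : Subgroup G) ≤ commutator G := hPx ▸ hs.le_commutator_of_ne (by
    rw [hPx]
    intro e
    rw [e, relIndex_self] at hPN
    omega)
  refine ⟨hP, by rw [hC, hPN], ?_, x, x.2, hs⟩
  rcases hmid (K := commutator G ⊓ N(P)) (le_inf hx' le_normalizer) inf_le_right with e | e
  · refine (hcore hx' (hasNormalPComplement_of_normalizer_le_centralizer (P.subtype hx')
      fun g hg => ?_)).elim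
    have h1 : (g : G) ∈ N(P) := by
      change g ∈ Subgroup.normalizer (((P : Subgroup G).subgroupOf (commutator G) :
        Subgroup (commutator G)) : Set (commutator G)) at hg
      rw [← Subgroup.subgroupOf_normalizer_eq hx'] at hg
      exact hg
    have h2 : (g : G) ∈ C(P) := hC.ge (e.le ⟨g.2, h1⟩)
    exact fun y hy => Subtype.ext (h2 y hy)
  · rw [← P.normalizer_sup_eq_top' hx', eq_comm, sup_eq_right]
    exact inf_eq_right.1 e

theorem PBlk.perm_dec {P : Subgroup G} [Fintype P] {Q : (G → ℂ) → Prop}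
    {X Y : Finset (IrrCharacter G)} {ζ : (P →* ℂˣ) → IrrCharacter G} {δ : ℤ}
    {a : IrrCharacter G → ℤ} (b : PBlk p P Q X Y ζ δ a) (hp3 : 3 < p) (hQ : Q fun _ => 1)
    (he : X.card = 2) (hperf : commutator G = ⊤) {Θ : G → ℂ} (hΘ : IsCharacter G Θ) (hq : Q Θ)
    (h1 : ip Θ (fun _ => 1) = 1) (h0 : ∀ u : P, u ≠ 1 → Θ u = 0) (hd : charDegree Θ ≤ 2 * p) :
    ∃ χ ∈ X, χ ≠ IrrCharacter.one G ∧ a χ = -1 ∧ ip Θ χ.1 = 1 ∧ charDegree χ.1 + 1 ≤ charDegree Θ ∧
      (charDegree χ.1 = p - 1 ∨ charDegree χ.1 + 1 = 2 * p) := by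
  obtain ⟨χ, hχ, hne⟩ := Finset.exists_mem_ne (by omega : 1 < X.card) (IrrCharacter.one G)
  obtain ⟨ht, h1X, hs⟩ := b.eq_pair hp3 hQ he hχ hne
  have ha1 := b.a_one h1X
  have h1' : ipNat Θ (IrrCharacter.one G).1 = 1 := ipNat_eq_of_ip_eq (h1.trans Nat.cast_one.symm)
  have h2 : ∀ η ∈ Y, δ * ipNat Θ η.1 = 1 + a χ * ipNat Θ χ.1 := fun η hη => by
    have := b.dec_const_nat hΘ hq (c := 0) (by simpa using h0) hη
    rwa [hs, ha1, h1', sub_zero, Nat.cast_one, mul_one] at this
  have h3 : ∀ η ∈ Y, δ * charDegree η.1 = 1 + a χ * charDegree χ.1 := fun η hη => by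
    have := b.deg_rel hη
    rwa [hs, ha1, IrrCharacter.charDegree_one, Nat.cast_one, mul_one] at this
  have h4 := hΘ.sum_ipNat_mul_le (X ∪ Y)
  rw [Finset.sum_union b.disj, hs, h1', IrrCharacter.charDegree_one] at h4
  have h5 : ∀ k, (∀ η ∈ Y, k ≤ ipNat Θ η.1 * charDegree η.1) →
      2 * k ≤ ∑ η ∈ Y, ipNat Θ η.1 * charDegree η.1 := fun k hk =>
    (Nat.mul_le_mul_right k ht).trans (Finset.card_nsmul_le_sum _ _ _ hk)
  have h6 := (b.modEq_X hχ).symm.dvd
  have h7 := χ.charDegree_pos
  have h8 : charDegree χ.1 ≠ 1 := fun e => by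
    obtain ⟨lam, rfl⟩ := IrrCharacter.exists_ofLinear_eq_of_charDegree e
    exact hne (IrrCharacter.ofLinear_eq_one_iff.2 (commutator_eq_top_iff_forall_linear.1 hperf lam))
  obtain ⟨η₀, hη₀⟩ := b.Y_nonempty
  rcases b.asign χ hχ with ha | ha
  · exfalso
    rw [ha] at h2 h3 h6
    have h9 := Int.le_of_dvd (by omega) h6
    have hδ : δ = 1 := b.sign.resolve_right fun e => by
      have := h3 η₀ hη₀
      rw [e] at this
      omega
    rw [hδ] at h2 h3
    have := h5 (p + 2) fun η hη => by
      have h10 := h2 η hη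
      have h11 := h3 η hη
      exact le_trans (by omega) (Nat.mul_le_mul (show 1 ≤ _ by omega) le_rfl)
    omega
  rw [ha] at h2 h3 h6
  have h9 := Int.le_of_dvd (by omega) h6
  have hδ : δ = -1 := b.sign.resolve_left fun e => by
    have := h3 η₀ hη₀
    rw [e] at this
    omega
  rw [hδ] at h2 h3
  have h10 : ipNat Θ χ.1 = 1 := by
    have h11 := h2 η₀ hη₀
    by_contra hne
    have := h5 (p - 2) fun η hη => by
      have h10 := h2 η hη
      have h11 := h3 η hη
      exact le_trans (by omega) (Nat.mul_le_mul (show 1 ≤ _ by omega) le_rfl)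
    have := Nat.mul_le_mul_right (charDegree χ.1) (show 2 ≤ ipNat Θ χ.1 by omega)
    omega
  rw [h10] at h4
  refine ⟨χ, hχ, hne, ha, by rw [← hΘ.ipNat_cast χ.isCharacter, h10, Nat.cast_one], by omega, ?_⟩
  obtain ⟨k, hk⟩ := h6
  have h11 : k < 3 := lt_of_mul_lt_mul_left (a := (p : ℤ)) (by omega) (by omega)
  have h12 : 0 < k := pos_of_mul_pos_right (a := (p : ℤ)) (by omega) (by omega)
  interval_cases k <;> omega

theorem exists_elemInvol_of_perm {α : Type*} [Finite α] [MulAction G α] [FaithfulSMul G α]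
    [IsPreprimitive G α] (hp3 : 3 < p)
    (hα : Nat.card α = p ∨ (Nat.card α = 2 * p ∧ ¬ IsMultiplyPretransitive G α 2))
    (P : Sylow p G) (hN : Nat.card N(P) = 2 * p) (hnn : ¬ (P : Subgroup G).Normal) :
    Nat.card G = (p - 1 + 1) * (p - 1) * (p - 1 - 1) ∧ ElemInvol G (p - 1) ∧
      ∃ χ : IrrCharacter G, charDegree χ.1 = p - 1 ∧ ip (permChar G α) χ.1 = 1 ∧
      (∀ g, IsPRegular p g → Odd (orderOf g) → g ≠ 1 → χ g = 1) ∧
      ∀ z, orderOf z = 2 → χ z = 0 := by
  have hd : p ∣ Nat.card α := hα.elim (fun e => dvd_of_eq e.symm) fun e => e.1 ▸ dvd_mul_left _ _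
  have : Nonempty α := (Nat.card_ne_zero.1 (by omega)).1
  have hO : pPrimeCore p G = ⊥ := by_contra fun h =>
    not_dvd_card_pPrimeCore p G (hd.trans (dvd_card_of_normal_of_isPreprimitive h))
  obtain ⟨hP, he, hperf, x, hx, hs⟩ := exists_selfCent_of_card_normalizer (by omega) P hN hO hnn
  let _ := Fintype.ofFinite P
  obtain ⟨X, Y, ζ, δ, a, b, -⟩ := exists_pBlk_principal P hP
  have hπ := permChar_isCharacter (G := G) α
  have hπ1 : charDegree (permChar G α) = Nat.card α := by
    have := hπ.apply_one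
    rw [permChar_apply_one] at this
    exact_mod_cast this.symm
  have h1 : ip (permChar G α) (fun _ => 1) = 1 := by
    rw [ip_permChar_one, Nat.cast_eq_one, Nat.card_eq_one_iff_unique]
    exact ⟨(pretransitive_iff_subsingleton_quotient G α).1 inferInstance,
      ⟨Quotient.mk'' (Classical.arbitrary α)⟩⟩
  obtain ⟨χ, hχ, hne, ha, h2, h3, h4⟩ := b.perm_dec hp3 (fun _ _ _ _ _ => rfl) (b.cardX.trans he)
    hperf hπ (hs.secConst hP hπ.isClassFunction) h1 (fun u hu => by
      rw [permChar_apply, Nat.cast_eq_zero, Nat.card_eq_zero]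
      refine Or.inl ⟨fun c => hs.not_dvd_index ?_⟩
      have h5 := (stabilizer G c.1).card_mul_index
      have h6 := (stabilizer G c.1).orderOf_dvd_natCard (c.2 : (u : G) ∈ stabilizer G c.1)
      rw [index_stabilizer_of_transitive, ← hs.index_zpowers_mul] at h5
      rw [b.orderOf_eq hu] at h6
      exact Nat.dvd_of_mul_dvd_mul_right hp.out.pos (h5 ▸ mul_dvd_mul h6 hd)) (by omega)
  have h5 : charDegree χ.1 = p - 1 := h4.resolve_right fun e => by
    obtain ⟨h6, h7⟩ := hα.resolve_left (by omega)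
    have h8 := hπ.eq_sum_of_le (Y := {IrrCharacter.one G, χ}) (by
      simp only [Finset.mem_insert, Finset.mem_singleton, forall_eq_or_imp, forall_eq]
      exact ⟨h1 ▸ one_ne_zero, h2 ▸ one_ne_zero⟩) (by
      rw [Finset.sum_pair hne.symm, IrrCharacter.charDegree_one]
      omega)
    have h9 := ip_permChar_permChar (G := G) α α
    conv_lhs at h9 => rw [h8, Finset.sum_pair hne.symm, ← Finset.sum_pair hne.symm, ← h8]
    nth_rewrite 2 [h8] at h9
    rw [Finset.sum_pair hne.symm, ip_add_right, h2] at h9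
    erw [h1] at h9
    have h10 : Nat.card (orbitRel.Quotient G (α × α)) = 2 := by exact_mod_cast h9.symm
    refine h7 (is_two_pretransitive_iff.2 fun {c d e f} hcd hef => ?_)
    have h11 : ∀ {c d e : α}, c ≠ d → (Quotient.mk'' (e, e) : orbitRel.Quotient G (α × α)) ≠
        Quotient.mk'' (c, d) := by
      intro c d e hcd h
      obtain ⟨g, hg⟩ := Quotient.exact' h
      exact hcd (MulAction.injective g ((congrArg Prod.fst hg).trans (congrArg Prod.snd hg).symm))
    obtain ⟨y, hy, hu⟩ := (Nat.card_eq_two_iff' (Quotient.mk'' (c, c))).1 h10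
    obtain ⟨g, hg⟩ := Quotient.exact' ((hu _ (h11 hef).symm).trans (hu _ (h11 hcd).symm).symm)
    exact ⟨g, congrArg Prod.fst hg, congrArg Prod.snd hg⟩
  obtain ⟨h6, h7, h8⟩ := b.of_card_two hs hp3 hx (fun Θ hΘ => hs.secConst hP hΘ) (b.cardX.trans he)
    hχ h5 fun g hg => by
      have h6 : charKer χ.1 ≤ pPrimeCore p G := le_pPrimeCore_of_not_dvd fun hd => by
        have := χ.mem_charKer.1 (hs.le_of_dvd hd (mem_zpowers x))
        rw [b.valX χ hχ ⟨x, hx⟩ fun e => hs.ne_one (congrArg Subtype.val e), ha,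
          χ.apply_one] at this
        have : (-1 : ℤ) = charDegree χ.1 := by exact_mod_cast this
        omega
      exact mem_bot.1 (hO ▸ h6 (χ.mem_charKer.2 hg))
  exact ⟨h6, h7, χ, h5, h2, h8⟩

theorem ElemInvol.nonempty_alternating (h : ElemInvol G 4) (hG : Nat.card G = 60) :
    Nonempty (G ≃* alternatingGroup (Fin 5)) := by
  have h1 := h.card_eq hG ⟨2, rfl⟩
  have h2 := h.isSharp3 hG ⟨2, rfl⟩
  obtain ⟨e⟩ : Nonempty (Sylow 2 G ≃ Fin 5) := Finite.card_eq.1 (by simpa using h1)
  let φ : G →* Equiv.Perm (Fin 5) := e.permCongrHom.toMonoidHom.comp (toPermHom G (Sylow 2 G))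
  have hφ : Function.Injective φ := e.permCongrHom.injective.comp fun g g' hg =>
    h2.ext (e.symm.injective.ne (show (0 : Fin 5) ≠ 1 by decide))
      (e.symm.injective.ne (show (0 : Fin 5) ≠ 2 by decide))
      (e.symm.injective.ne (show (1 : Fin 5) ≠ 2 by decide))
      (congrArg (fun σ : Equiv.Perm _ => σ _) hg) (congrArg (fun σ : Equiv.Perm _ => σ _) hg)
      (congrArg (fun σ : Equiv.Perm _ => σ _) hg)
  have h3 := φ.range.card_mul_index
  rw [← Nat.card_congr (MonoidHom.ofInjective hφ).toEquiv, hG, Nat.card_perm, Nat.card_fin] at h3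
  have h4 := Equiv.Perm.eq_alternatingGroup_of_index_eq_two (G := φ.range)
    (by simp [Nat.factorial] at h3; omega)
  exact ⟨(MonoidHom.ofInjective hφ).trans (MulEquiv.subgroupCongr h4)⟩

/-- A subgroup of order `q (q - 1) / 2` with `q - 1` involutions forces `q = 4`. -/
theorem ElemInvol.eq_four {q : ℕ} (h : ElemInvol G q) (hq : Even q) (H : Subgroup G)
    (hH : 2 * Nat.card H = q * (q - 1)) (hI : Nat.card {s : H // orderOf s = 2} + 1 = q) :
    q = 4 := by
  let _ := Fintype.ofFinite H
  obtain ⟨r, rfl⟩ := hq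
  have hr : 0 < r := by omega
  have hH' : Nat.card H = r * (r + r - 1) := by
    rw [← two_mul r, mul_assoc, two_mul r] at hH
    omega
  have hc : ∀ s : H, orderOf s = 2 → Nat.card (centralizer ({s} : Set H)) = r := by
    intro s hs
    have hs' : orderOf (s : G) = 2 := (Subgroup.orderOf_coe s).trans hs
    have h1 := (centralizer ({s} : Set H)).card_mul_index
    have h2 : (centralizer ({s} : Set H)).index ≤ r + r - 1 := by
      rw [← card_isConj_eq_index, show r + r - 1 = Nat.card {s : H // orderOf s = 2} by omega]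
      exact Nat.card_le_card_of_injective
        (fun y => ⟨y.1, (orderOf_eq_of_isConj' y.2).symm.trans hs⟩)
        fun y y' e => Subtype.ext (congrArg Subtype.val e :)
    have h3 : IsPGroup 2 (centralizer ({s} : Set H)) := fun y => ⟨1, Subtype.ext (Subtype.ext (by
      simpa [pow_two] using (h s hs').2 y (mem_centralizer_singleton_iff.2
        (congrArg Subtype.val (mem_centralizer_singleton_iff.1 y.2)))))⟩
    obtain ⟨k, hk⟩ := h3.exists_card_eq
    have h4 : Nat.card (centralizer ({s} : Set H)) ∣ r := by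
      refine Nat.Coprime.dvd_of_dvd_mul_right ?_ (hH' ▸ Dvd.intro _ h1)
      rw [hk]
      exact (Nat.coprime_two_left.2 ⟨r - 1, by omega⟩).pow_left _
    refine le_antisymm (Nat.le_of_dvd hr h4) (Nat.le_of_mul_le_mul_right (c := r + r - 1) ?_
      (by omega))
    rw [← hH', ← h1]
    exact Nat.mul_le_mul_left _ h2
  set I : Finset H := Finset.univ.filter fun s => orderOf s = 2 with hId
  have h1 := Finset.card_eq_sum_card_image (fun s : H => C₁((s : G))) I
  rw [Finset.sum_congr rfl (g := fun _ => r - 1), Finset.sum_const, smul_eq_mul] at h1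
  · rw [Nat.card_eq_fintype_card, Fintype.card_subtype, ← hId, h1] at hI
    have h2 : r - 1 ∣ 1 := (Nat.dvd_add_right (dvd_mul_left (r - 1) 2)).1
      (Dvd.intro_left (I.image fun s : H => C₁((s : G))).card (by omega))
    have := Nat.dvd_one.1 h2
    omega
  intro K hK
  obtain ⟨s, hs, rfl⟩ := Finset.mem_image.1 hK
  have hs2 : orderOf s = 2 := (Finset.mem_filter.1 hs).2
  have hs' : orderOf (s : G) = 2 := (Subgroup.orderOf_coe s).trans hs2
  rw [← hc s hs2, Nat.card_eq_fintype_card, Fintype.card_subtype, ← Finset.card_erase_of_mem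
    (a := 1) (Finset.mem_filter.2 ⟨Finset.mem_univ _, one_mem _⟩)]
  congr 1
  ext y
  simp only [hId, Finset.mem_filter, Finset.mem_univ, true_and, Finset.mem_erase]
  constructor
  · rintro ⟨h2, h3⟩
    refine ⟨ne_one_of_orderOf_two h2, mem_centralizer_singleton_iff.2 (Subtype.ext ?_)⟩
    exact mem_centralizer_singleton_iff.1 (h3.le (mem_centralizer_singleton_iff.2 rfl))
  · rintro ⟨h2, h3⟩
    have h4 : (y : G) ∈ C₁((s : G)) :=
      mem_centralizer_singleton_iff.2 (congrArg Subtype.val (mem_centralizer_singleton_iff.1 h3))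
    exact ⟨orderOf_two_of_mul_self (Subtype.ext ((h s hs').2 y h4)) h2,
      h.centralizer_eq_of_mem hs' h4 fun e => h2 (Subtype.ext e)⟩

theorem ElemInvol.odd_orderOf {q : ℕ} (h : ElemInvol G q) {g : G} (hg : orderOf g ≠ 2) :
    Odd (orderOf g) := by
  rw [← Nat.not_even_iff_odd]
  intro he
  have hz := orderOf_pow_orderOf_div (orderOf_pos g).ne' he.two_dvd
  have := (h _ hz).2 g (mem_centralizer_singleton_iff.2 (Commute.self_pow g _))
  refine hg (orderOf_two_of_mul_self this ?_)
  rintro rfl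
  simp at he

end Cfsg
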