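import Cfsg.Agent.Grp.PrimeTIB
import Cfsg.Agent.Mod.PrimeWt
import Cfsg.Agent.Blk.PrimePerm
import Cfsg.Agent.Char.Det

/-!
# Transitive groups of prime degree with a TI complement of odd order
-/

set_option autoImplicit false
set_option linter.unusedSectionVars false
set_option linter.style.haveILetI false

namespace Cfsg

open Subgroup MulAction PM Module Finset Polynomial
open scoped ComplexConjugate Classical

universe u v w

variable {G : Type u} [Group G] [Finite G] {p : ℕ} [hp : Fact p.Prime] {x : G}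

local notation "N(" Q ")" => Subgroup.normalizer ((Q : Subgroup G) : Set G)

theorem ip_congr_of_apply_one {γ F F' : G → ℂ} (h : γ 1 = 0) (h' : ∀ g, g ≠ 1 → F g = F' g) :
    ip γ F = ip γ F' := by
  let _ := Fintype.ofFinite G
  rw [ip_def, ip_def]
  refine congrArg _ (sum_congr rfl fun g _ => ?_)
  by_cases e : g = 1
  · rw [e, h, zero_mul, zero_mul]
  · rw [h' g e]

/-- The projective summand of a self-dual module of dimension `p + 1` has a real weight. -/
theorem PM.Loc.wt_eq_inv {k : Type v} [Field k] [CharP k p] {L : Subgroup G} {α : Wt L k}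
    {q q' : k[X]} (h : Loc p x L α q q') {W : Type w} [AddCommGroup W] [Module k W]
    {ρ : Representation k G W} (f : ρ.Equiv ρ.dual) (C : Chains (dop ρ x q) (sig ρ L)) {d : C.ι}
    (hd : C.m d = p) (hc : ∀ c, c ≠ d → C.m c = 1) : C.w d = (C.w d)⁻¹ := by
  have h0 : ∀ g y z, f (ρ g y) z = f y (ρ g⁻¹ z) := fun g y z =>
    LinearMap.congr_fun (LinearMap.congr_fun (f.toIntertwiningMap.2 g) y) z
  have h1 : ∀ y, dop ρ x q y = 0 → ρ x⁻¹ y = y := fun y hy => by
    have := (h.pow_apply_eq_zero (j := 1)).1 (by rwa [pow_one])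
    rw [pow_one, LinearMap.sub_apply, sub_eq_zero] at this
    exact (congrArg (ρ x⁻¹) this).symm.trans (ρ.inv_self_apply x y)
  have h2 : ∀ y, ∃ z, dop ρ x q y = ρ x z - z := fun y => by
    obtain ⟨z, hz⟩ := (h.range_pow ρ 1).le ⟨y, rfl⟩
    exact ⟨z, by rw [pow_one, pow_one] at hz; exact hz.symm⟩
  obtain ⟨n, hn⟩ := Nat.exists_eq_add_of_lt hp.out.one_lt
  have h3 : dop ρ x q ((dop ρ x q ^ (p - 1)) (C.u d)) = 0 := by
    rw [← End.mul_apply, ← pow_succ', Nat.sub_add_cancel hp.out.one_le]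
    exact C.pow_u_eq_zero hd.le
  by_contra e
  refine C.pow_u_ne_zero (c := d) (i := p - 1) (by omega)
    (f.toLinearEquiv.map_eq_zero_iff.1 (C.hom_ext fun c i _ => ?_))
  show f _ _ = 0
  rcases i with _ | i
  · by_cases e' : c = d
    · refine apply_eq_zero_of_wt (μ := (C.w d)⁻¹) (σ := sig ρ L) (fun l y => ?_) (e' ▸ C.wt d) e
      have := mem_wsp.1 (C.pow_u_mem (h.shifts ρ) d (p - 1)) l⁻¹
      rw [h.alpha_pow, mul_one, sig_apply] at this
      rw [sig_apply, ← inv_inv (l : G), ← h0, ← Subgroup.coe_inv, this, map_smul, LinearMap.smul_apply,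
        smul_eq_mul, Wt.inv_apply, map_inv]
    · obtain ⟨z, hz⟩ := h2 ((dop ρ x q ^ n) (C.u d))
      rw [show p - 1 = n + 1 by omega, pow_succ', End.mul_apply, hz, map_sub, LinearMap.sub_apply,
        h0, pow_zero, End.one_apply, h1 _ (by simpa using C.pow_u_eq_zero (hc c e').le), sub_self]
  · obtain ⟨z, hz⟩ := h2 ((dop ρ x q ^ i) (C.u c))
    have := h0 x⁻¹ ((dop ρ x q ^ (p - 1)) (C.u d)) z
    rw [inv_inv, h1 _ h3] at this
    rw [pow_succ', End.mul_apply, hz, map_sub, ← this, sub_self]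

namespace TIData

variable {α : Type v} [MulAction G α] {E : Subgroup G} (h : TIData p α x E)
include h

theorem eq_bot_or_eq_top (K : Subgroup G) [K.Normal] : K = ⊥ ∨ K = ⊤ := by
  have := h.faith
  have := h.finite
  have := h.isPretransitive
  have : Nonempty α := (Nat.card_ne_zero.1 (h.card ▸ hp.out.ne_zero)).1
  have := IsPreprimitive.of_prime_card (G := G) (h.card ▸ hp.out)
  exact or_iff_not_imp_left.2 fun e => eq_top_iff.2 (h.perf ▸ h.sc.commutator_le
    (h.card ▸ dvd_card_of_normal_of_isPreprimitive e))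

variable [Fintype E] (ho : Odd (Nat.card E))
include ho

theorem apply_inv {F : G → ℂ} (hF : IsClassFunction G F) (l : E) : F (l⁻¹ : E) = F l := by
  obtain ⟨s, hs, hs'⟩ := h.exists_not_mem
  rw [Subgroup.coe_inv, ← h.conj_eq_inv ho hs hs' l.2, hF]

omit h in
theorem _root_.Cfsg.PM.Wt.eq_one_of_odd {k : Type w} [Field k] {w : Wt E k} {l : E}
    (hl : w l = (w l)⁻¹) : w l = 1 := by
  obtain ⟨n, hn⟩ := ho
  have := Wt.pow_card w l
  rw [hn, pow_succ, pow_mul, sq, ← Units.val_mul, eq_inv_iff_mul_eq_one.1 hl, Units.val_one,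
    one_pow, one_mul] at this
  exact Units.ext this

theorem apply_eq_one {F : G → ℂ} (hF : IsClassFunction G F) {w : Wt E ℂ}
    (hw : ∀ l : E, l ≠ 1 → F l = w l) {l : E} (hl : l ≠ 1) : F l = 1 := by
  rw [hw l hl, Wt.eq_one_of_odd ho (Units.ext (by
    rw [← hw l hl, ← map_inv, ← hw _ (inv_ne_one.2 hl), h.apply_inv ho hF])), Units.val_one]

theorem ind_apply {γ : E → ℂ} (h1 : γ 1 = 0) (l : E) : ind E.subtype γ l = γ l + γ l⁻¹ := by
  by_cases hl : l = 1
  · rw [hl, Subgroup.coe_one, ind_subtype_apply_one, inv_one, h1, mul_zero, add_zero]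
  have h2 : (l : G) ≠ 1 := fun e => hl (Subtype.ext e)
  obtain ⟨s, hs, hs'⟩ := h.exists_not_mem
  rw [ind_apply_eq_card_centralizer, show centralizer ({(l : G)} : Set G) = E from
    le_antisymm (fun g hg => h.mem_of_comm' ho l.2 h2 (mem_centralizer_singleton_iff.1 hg))
      fun g hg => mem_centralizer_singleton_iff.2 (h.comm hg l.2),
    mul_inv_cancel₀ (Nat.cast_ne_zero.2 Nat.card_pos.ne'), one_mul,
    show {y : E | IsConj (l : G) (E.subtype y)} = {l, l⁻¹} from Set.ext fun y =>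
      ⟨fun e => (h.eq_or_eq_inv ho l.2 h2 y.2 e).imp Subtype.ext Subtype.ext, by
        rintro (rfl | rfl)
        exacts [IsConj.refl _, isConj_iff.2 ⟨s, h.conj_eq_inv ho hs hs' l.2⟩]⟩, finsum_mem_pair]
  exact fun e => h2 (eq_one_of_mul_self_of_odd (odd_orderOf_of_mem ho l.2)
    (congrArg Subtype.val (eq_inv_iff_mul_eq_one.1 e)))

theorem exists_exc {χ : IrrCharacter G} (hχ : ∀ l : E, l ≠ 1 → χ l = 1)
    (h1 : χ ≠ IrrCharacter.one G) : ∃ θ : IrrCharacter G,
      charDegree θ.1 = charDegree χ.1 + 1 ∧ star θ.1 = θ.1 ∧ ¬ ∀ l : E, l ≠ 1 → θ l = 2 := by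
  obtain ⟨y, hy⟩ := ne_bot_iff_exists_ne_one.1 h.ne_bot
  obtain ⟨lam, hl⟩ := exists_linear_ne_one_of_comm
    (fun a b : E => Subtype.ext (h.comm a.2 b.2)) hy
  have e1 : IrrCharacter.ofLinear lam ≠ IrrCharacter.one E := fun e => hl (by
    rw [IrrCharacter.ofLinear_eq_one_iff.1 e]; rfl)
  have e2 : IrrCharacter.ofLinear lam⁻¹ ≠ IrrCharacter.one E := fun e => hl (inv_eq_one.1
    (DFunLike.congr_fun (IrrCharacter.ofLinear_eq_one_iff.1 e) y))
  have e3 : IrrCharacter.ofLinear lam ≠ IrrCharacter.ofLinear lam⁻¹ := fun e =>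
    hl (Wt.eq_one_of_odd ho (w := lam) (DFunLike.congr_fun (IrrCharacter.ofLinear_inj.1 e) y))
  obtain ⟨γ, hγ⟩ : ∃ γ, γ = (IrrCharacter.one E).1 - (IrrCharacter.ofLinear lam).1 := ⟨_, rfl⟩
  have g0 : γ 1 = 0 := by simp [hγ]
  have g1 : ip γ (IrrCharacter.one E).1 = 1 := by
    rw [hγ, ip_sub_left, IrrCharacter.ip_self, IrrCharacter.ip_of_ne e1, sub_zero]
  have g2 : IsGeneralizedCharacter G (ind E.subtype γ) :=
    (hγ ▸ (IrrCharacter.one E).isCharacter.isGen.sub
      (IrrCharacter.ofLinear lam).isCharacter.isGen).ind _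
  have g3 : ip (ind E.subtype γ) (IrrCharacter.one G).1 = 1 := by
    rw [ip_ind_left _ _ (IrrCharacter.one G).isClassFunction]; exact g1
  have g4 : ip (ind E.subtype γ) χ.1 = 1 := by
    rw [ip_ind_left _ _ χ.isClassFunction]; exact (ip_congr_of_apply_one g0 hχ).trans g1
  have g5 : ip (ind E.subtype γ) (ind E.subtype γ) = 3 := by
    rw [ip_ind_left _ _ g2.isClassFunction, show ind E.subtype γ ∘ E.subtype =
      γ + ((IrrCharacter.one E).1 - (IrrCharacter.ofLinear lam⁻¹).1) from funext fun l => by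
        rw [Function.comp_apply, coe_subtype, h.ind_apply ho g0, hγ]; simp, ip_add_right,
      ip_sub_right, g1, hγ]
    simp only [ip_sub_left, ip_sub_right, IrrCharacter.ip_self, IrrCharacter.ip_of_ne e1,
      IrrCharacter.ip_of_ne e1.symm, IrrCharacter.ip_of_ne e2.symm, IrrCharacter.ip_of_ne e3]
    norm_num
  have g6 := ((IrrCharacter.one G).isCharacter.isGen.add χ.isCharacter.isGen).sub g2
  have g7 : ((IrrCharacter.one G).1 + χ.1 - ind E.subtype γ) 1 = (charDegree χ.1 + 1 : ℕ) := by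
    rw [Pi.sub_apply, ind_subtype_apply_one, g0, Pi.add_apply, χ.apply_one]
    simp [add_comm]
  obtain ⟨θ, hθ⟩ : ∃ θ : IrrCharacter G,
      θ.1 = (IrrCharacter.one G).1 + χ.1 - ind E.subtype γ := ⟨⟨_, g6.isIrr_of_ip_self_eq_one (by
    simp only [ip_sub_left, ip_sub_right, ip_add_left, ip_add_right, IrrCharacter.ip_self,
      IrrCharacter.ip_of_ne h1, IrrCharacter.ip_of_ne h1.symm, g3, g4, g5,
      (IrrCharacter.one G).isCharacter.isGen.ip_comm g2, χ.isCharacter.isGen.ip_comm g2]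
    norm_num) (by rw [g7]; exact Nat.cast_nonneg (α := ℝ) _)⟩, rfl⟩
  have g8 : ip (ind E.subtype γ) θ.1 = -1 := by
    rw [hθ, ip_sub_right, ip_add_right, g3, g4, g5]; norm_num
  refine ⟨θ, Nat.cast_injective (R := ℂ) (by rw [← θ.apply_one, ← g7, ← hθ]),
    by_contra fun e => ?_, fun e => ?_⟩
  · have g9 : ip (ind E.subtype γ) θ.bar.1 = -1 := by
      rw [← g8, ip_ind_left _ _ θ.isClassFunction, ip_ind_left _ _ θ.bar.isClassFunction]
      exact congrArg _ (funext fun l => by
        rw [Function.comp_apply, IrrCharacter.bar_apply, ← θ.isCharacter.isGen.apply_inv]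
        exact h.apply_inv ho θ.isClassFunction l)
    have g10 : ip θ.1 θ.bar.1 = 0 :=
      IrrCharacter.ip_of_ne fun e' => e (congrArg Subtype.val e').symm
    obtain ⟨n, hn⟩ := ((IrrCharacter.one G).isCharacter.add χ.isCharacter).exists_ip_eq_nat
      θ.bar.isCharacter
    rw [congrArg (ip · θ.bar.1) hθ, ip_sub_left, g9, hn, sub_neg_eq_add] at g10
    exact Nat.cast_add_one_ne_zero n g10
  · rw [ip_ind_left _ _ θ.isClassFunction, ip_congr_of_apply_one g0 (F := θ.1 ∘ E.subtype)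
      (F' := (IrrCharacter.one E).1 + (IrrCharacter.one E).1) fun l hl => (e l hl).trans (by
        simp [one_add_one_eq_two]), ip_add_right, g1] at g8
    norm_num at g8

section Mod

variable {M : Ideal AlgInt} (hM : IsPModular p M) [CharP (ResK M) p] {a : Wt E (ResK M)}
  {q q' : (ResK M)[X]} (loc : Loc p x E a q q')
include hM loc

omit ho in
theorem sum_chain {l : E} (hl : l ≠ 1) (w : Wt E (ResK M)) {m : ℕ} (hm : Nat.card E ∣ m) :
    ∑ i ∈ range (m + 1), (hat hM loc.hLp (w * a ^ i) l : ℂ) = hat hM loc.hLp w l := by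
  have h1 : (hat hM loc.hLp a l : ℂ) ≠ 1 := fun e => hl (Subtype.ext (h.inf _ l.2 (by
    have := (hat_apply_inj hM loc.hLp (ν := a) (μ := 1) (l := l)).1 (by
      rw [map_one]; exact Units.ext e)
    exact h.sc.cent ▸ mem_centralizer_singleton_iff.2 (loc.comm_of_eq_one this))))
  have h2 : (hat hM loc.hLp a l : ℂ) ^ m = 1 := by
    obtain ⟨j, rfl⟩ := hm
    rw [pow_mul, Wt.pow_card, one_pow]
  simp only [map_mul, map_pow, Wt.mul_apply, Wt.pow_apply, Units.val_mul, Units.val_pow_eq_pow_val]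
  rw [← mul_sum, sum_range_succ, geom_sum_eq h1, h2, sub_self, zero_div, zero_add, mul_one]

theorem ibr_apply_eq_one (φ : IBr p M G) {m : ℕ} (hd : φ.deg = m + 1) (hm : Nat.card E ∣ m)
    (hle : m + 1 ≤ p) {l : E} (hl : l ≠ 1) : φ l = 1 := by
  obtain ⟨C⟩ := loc.nonempty_chains φ.rep
  have h1 : m + 1 = ∑ c, C.m c := by rw [← C.finrank_eq, finrank_fin_fun, hd]
  obtain ⟨c, -⟩ := exists_ne_zero_of_sum_ne_zero (h1.symm.trans_ne m.succ_ne_zero)
  have h2 : ∀ d, d = c := fun d => by_contra fun e => by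
    have := sum_le_sum_of_subset (f := C.m) (subset_univ {d, c})
    rw [sum_pair e] at this
    have := C.pos c
    have := C.pos d
    exact e (loc.eq_of_indec (indec_of_isIrreducible φ.rep_isIrreducible) C (by omega) (by omega))
  rw [Fintype.sum_eq_single c fun d e => absurd (h2 d) e] at h1
  refine h.apply_eq_one ho φ.isClassFunction (w := hat hM loc.hLp (C.w c)) (fun l hl => ?_) hl
  rw [← φ.brauerChar_rep, loc.brauerChar_eq_sum hM C,
    Fintype.sum_eq_single c fun d e => absurd (h2 d) e, ← h1, h.sum_chain hM loc hl _ hm]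

theorem ibr_apply_eq_two (φ : IBr p M G) (hd : φ.deg = p + 1) (hs : star φ.1 = φ.1) {l : E}
    (hl : l ≠ 1) : φ l = 2 := by
  obtain ⟨C⟩ := loc.nonempty_chains φ.rep
  obtain ⟨f⟩ := nonempty_equiv_of_brauerChar_eq hM φ.rep_isIrreducible
    (rep_isIrreducible_dual φ.rep_isIrreducible) (by rw [brauerChar_dual hM, φ.brauerChar_rep, hs])
  obtain ⟨c, h1, h2, h3⟩ := loc.exists_of_indec (indec_of_isIrreducible φ.rep_isIrreducible) C
    one_pos hp.out.one_lt (s := 1) (by rw [finrank_fin_fun, hd, one_mul, add_comm])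
  obtain ⟨d, hd⟩ := Fintype.exists_ne_of_one_lt_card (by omega) c
  have h4 : univ = {c, d} := (eq_univ_of_card _ (by rw [card_pair hd.symm, h3])).symm
  have h5 := loc.wt_eq_inv f C (h2 d hd) fun c' e => by
    rcases mem_insert.1 (h4 ▸ mem_univ c') with rfl | e'
    exacts [h1, absurd (mem_singleton.1 e') e]
  have h6 : C.w d = 1 := Wt.ext fun l => Wt.eq_one_of_odd ho (DFunLike.congr_fun h5 l)
  have h7 := h.apply_eq_one ho (φ.isClassFunction.sub (IsClassFunction.const 1))
    (w := hat hM loc.hLp (C.w c)) (fun l hl => by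
      rw [Pi.sub_apply, ← φ.brauerChar_rep, loc.brauerChar_eq_sum hM C, h4, sum_pair hd.symm, h1,
        (h2 d hd).trans (Nat.sub_add_cancel hp.out.one_le).symm,
        h.sum_chain hM loc hl _ h.dvd_sub_one, h6]
      simp) hl
  rw [Pi.sub_apply, sub_eq_iff_eq_add, one_add_one_eq_two] at h7
  exact h7

omit ho loc in
theorem rep_ne_one {θ : IrrCharacter G} (hθ : p < charDegree θ.1) {φ : IBr p M G}
    (hφ : decNum θ.1 φ ≠ 0) : φ.rep x ≠ 1 := fun e => by
  have := h.finite
  have := h.isPretransitive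
  obtain ⟨a⟩ : Nonempty α := (Nat.card_ne_zero.1 (h.card ▸ hp.out.ne_zero)).1
  have h0 : ¬ p ∣ Nat.card (stabilizer G a) := fun e => h.nsq (by
    rw [← index_mul_card (stabilizer G a), index_stabilizer_of_transitive, h.card, sq]
    exact Nat.mul_dvd_mul_left _ e)
  have h1 : ip (θ.1 ∘ (stabilizer G a).subtype) (IrrCharacter.one _).1 = 0 := by
    show ip _ (fun _ => 1) = 0
    rw [← ip_ind_right _ _ θ.isClassFunction, ← permChar_eq_ind_stabilizer,
      θ.isCharacter.ip_comm (permChar_isCharacter α)]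
    by_contra e
    have := (permChar_isCharacter α).charDegree_le_of_ip_ne_zero θ e
    rw [Nat.cast_injective (R := ℂ) ((permChar_isCharacter (G := G) α).apply_one.symm.trans
      (permChar_apply_one α)), h.card] at this
    omega
  choose n hn using fun ψ : IBr p M G => ((isBrauerChar_iff_of_not_dvd hM h0).1
    (ψ.isBrauerChar.comp_of_injective _ (subtype_injective _))).exists_ip_eq_nat
      (IrrCharacter.one _).isCharacter
  rw [show θ.1 ∘ (stabilizer G a).subtype =
    ∑ ψ : IBr p M G, (decNum θ.1 ψ : ℂ) • (ψ.1 ∘ (stabilizer G a).subtype) from funext fun g => by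
      rw [Finset.sum_apply]
      exact θ.isCharacter.apply_eq_sum_decNum hM (isPRegular_of_mem_of_not_dvd h0 g.2),
    ip_sum_left, sum_congr rfl fun ψ _ => (ip_smul_left _ _ _).trans (congrArg _ (hn ψ))] at h1
  norm_cast at h1
  have h2 := (mul_eq_zero.1 (sum_eq_zero_iff.1 h1 φ (mem_univ _))).resolve_left hφ
  have h3 := (h.eq_bot_or_eq_top (MonoidHom.ker φ.rep)).resolve_left fun e' =>
    h.sc.ne_one (mem_bot.1 (e' ▸ e))
  have h4 := hn φ
  rw [show φ.1 ∘ (stabilizer G a).subtype = (φ.deg : ℂ) • (IrrCharacter.one _).1 from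
    funext fun g => by
      rw [Function.comp_apply, coe_subtype, ← φ.brauerChar_rep,
        brauerChar_of_reg _ (isPRegular_of_mem_of_not_dvd h0 g.2),
        show φ.rep _ = 1 from h3.ge (mem_top _), rootLift_charpoly_one hM]
      simp, ip_smul_left, IrrCharacter.ip_self, h2, mul_one, Nat.cast_inj] at h4
  exact φ.deg_pos.ne' h4

end Mod

theorem exists_small {χ : IrrCharacter G} (hχ : charDegree χ.1 = p) :
    (N(zpowers x)).index = p + 1 ∧ p = 2 * Nat.card E + 1 := by
  obtain ⟨M, hM⟩ := exists_isPModular hp.out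
  haveI := hM.charP
  obtain ⟨a, q, q', loc⟩ := exists_loc (k := ResK M) h.ord h.nsq h.not_dvd h.sup
    fun a b => Subtype.ext (h.comm a.2 b.2)
  have h0 : ∀ l : E, IsPRegular p (l : G) := fun l => isPRegular_of_mem_of_not_dvd h.not_dvd l.2
  have h1 := hp.out.one_lt
  have h2 : Nat.card E ≠ 1 := fun e => h.ne_bot (card_eq_one.1 e)
  obtain ⟨t, ht⟩ := h.dvd_sub_one
  have hp2 : p ≠ 2 := fun e => h2 (Nat.eq_one_of_mul_eq_one_right (n := t) (by omega))
  obtain ⟨n, hn⟩ := hp.out.odd_of_ne_two hp2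
  have h3 : Nat.card E ∣ n := (Nat.coprime_two_right.2 ho).dvd_of_dvd_mul_left ⟨t, by omega⟩
  let ψ : IBr p M G := ⟨_, χ.isIBr_of_defect_zero hM (by
    rw [hχ, hp.out.factorization_self]
    exact Nat.lt_succ_iff.1 (not_le.1 fun e =>
      h.nsq ((hp.out.pow_dvd_iff_le_factorization Nat.card_pos.ne').2 e)))⟩
  obtain ⟨θ, h4, h5, h6⟩ := h.exists_exc ho (χ := χ) (fun l hl => by
    rw [← pRegularPart_of_reg (θ := χ.1) (h0 l)]
    refine h.ibr_apply_eq_one ho hM loc ψ (m := p - 1) (Nat.cast_injective (R := ℂ) ?_)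
      h.dvd_sub_one (by omega) hl
    rw [← ψ.apply_one hM, Nat.sub_add_cancel h1.le]
    exact (pRegularPart_of_reg (h0 1)).trans (χ.apply_one.trans (by rw [hχ]))) (by rintro rfl; simp at hχ; omega)
  rw [hχ] at h4
  obtain ⟨φ, h7, h8⟩ : ∃ φ : IBr p M G, decNum θ.1 φ ≠ 0 ∧ φ.deg ≤ n := by
    by_contra! e
    refine h6 fun l hl => ?_
    have h7 := θ.isCharacter.charDegree_eq_sum_decNum hM
    by_cases e' : ∀ φ : IBr p M G, decNum θ.1 φ ≠ 0 → φ.deg = n + 1
    · rw [sum_congr rfl (g := fun φ => decNum θ.1 φ * (n + 1)) fun φ _ => by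
        by_cases h8 : decNum θ.1 φ = 0
        · rw [h8, zero_mul, zero_mul]
        · rw [e' φ h8], ← sum_mul, h4, show p + 1 = 2 * (n + 1) by omega,
        Nat.mul_left_inj n.succ_ne_zero] at h7
      rw [θ.isCharacter.apply_eq_sum_decNum hM (h0 l), 
        show (2 : ℂ) = ∑ φ : IBr p M G, (decNum θ.1 φ : ℂ) by exact_mod_cast h7]
      refine Finset.sum_congr rfl fun φ _ => ?_
      by_cases h8 : decNum θ.1 φ = 0
      · rw [h8, Nat.cast_zero, zero_mul]
      · rw [h.ibr_apply_eq_one ho hM loc φ (e' φ h8) h3 (by omega) hl, mul_one]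
    push Not at e'
    obtain ⟨φ, h8, h9⟩ := e'
    have h10 : φ.deg = p + 1 := by
      rw [← add_sum_erase _ _ (mem_univ φ)] at h7
      have h10 := e φ h8
      obtain ⟨j, hj⟩ := Nat.exists_eq_succ_of_ne_zero h8
      rw [hj, Nat.succ_mul] at h7
      by_cases h11 : ∑ φ' ∈ univ.erase φ, decNum θ.1 φ' * φ'.deg = 0
      · rcases j with _ | j
        · omega
        · rw [Nat.succ_mul] at h7
          omega
      obtain ⟨φ', h12, h13⟩ := exists_ne_zero_of_sum_ne_zero h11
      have h14 := single_le_sum (f := fun φ' => decNum θ.1 φ' * φ'.deg)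
        (fun _ _ => Nat.zero_le _) h12
      have h15 := e φ' (left_ne_zero_of_mul h13)
      have h16 := Nat.le_mul_of_pos_left φ'.deg (Nat.pos_of_ne_zero (left_ne_zero_of_mul h13))
      omega
    have h11 := (θ.isCharacter.isBrauerChar hM).eq_of_apply_one_eq hM (φ := φ)
      (by rwa [decNum_pRegularPart]) (by
        rw [φ.apply_one hM, h10, ← h4, ← θ.apply_one]; exact pRegularPart_of_reg (h0 1))
    rw [← pRegularPart_of_reg (θ := θ.1) (h0 l), h11]
    exact h.ibr_apply_eq_two ho hM loc φ h10 (by rw [← h11, ← pRegularPart_star, h5]) hl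
  obtain ⟨-, K, _, hK, hD, he⟩ := dickson_of_small_dim h.ord h.nsq φ.rep φ.rep_isIrreducible
    (by rw [finrank_fin_fun]; omega) (h.rep_ne_one hM (by omega) h7)
  obtain rfl := (h.eq_bot_or_eq_top K).resolve_right fun e => hK.ne_one
    ((QuotientGroup.eq_one_iff x).2 (e ▸ mem_top x))
  have hb : Function.Bijective (QuotientGroup.mk' (⊥ : Subgroup G)) :=
    ⟨(MonoidHom.ker_eq_bot_iff _).1 (QuotientGroup.ker_mk' _), QuotientGroup.mk'_surjective _⟩
  rw [show zpowers (x : G ⧸ (⊥ : Subgroup G)) = (zpowers x).map (QuotientGroup.mk' ⊥) from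
    (MonoidHom.map_zpowers (QuotientGroup.mk' ⊥) x).symm, ← map_normalizer_eq_of_bijective _ hb] at hD he
  rw [index_map_of_bijective hb] at hD
  rw [relIndex_map_map_of_injective _ _ hb.1, h.relIndex_zpowers] at he
  have := Nat.le_of_dvd (by omega) h3
  exact ⟨hD, by omega⟩

omit ho in
theorem psl {χ : IrrCharacter G} (hχ : charDegree χ.1 = p) : (p = 5 ∨ p = 7 ∨ p = 11) ∧
    Nonempty (G ≃* Matrix.ProjectiveSpecialLinearGroup (Fin 2) (ZMod p)) := by
  by_cases ho : Odd (Nat.card E)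
  · obtain ⟨h1, h2⟩ := h.exists_small ho hχ
    exact ⟨Or.inr (h.eq_seven_or ho h2 h1), h.sc.nonempty_psl h2 h1 h.card_normalizer h.perf⟩
  · obtain ⟨z, hz, h1, h2⟩ := exists_invol_of_not_odd ho
    obtain ⟨h3, h4, h5⟩ := h.eq_five hz h1 h2
    exact ⟨Or.inl h3, h.sc.nonempty_psl (e := Nat.card E) (by omega) (by omega) h.card_normalizer
      h.perf⟩

end TIData

theorem commutator_eq_top_of_unique {α : Type v} [MulAction G α] [FaithfulSMul G α]
    [IsPretransitive G α] (hα : Nat.card α = p) (h : SelfCent p x)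
    (hu : ∃! χ : IrrCharacter G, charDegree χ.1 = p) : commutator G = ⊤ := by
  have : Finite α := Nat.finite_of_card_ne_zero (hα ▸ hp.out.ne_zero)
  have : Nonempty α := (Nat.card_ne_zero.1 (hα ▸ hp.out.ne_zero)).1
  have := IsPreprimitive.of_prime_card (G := G) (hα ▸ hp.out)
  obtain ⟨χ, h1, h2⟩ := hu
  by_contra e
  obtain ⟨lam, hl⟩ := exists_linear_ne_one_of_commutator_ne_top e
  have h3 : p ∣ Nat.card (commutator G) := hα ▸ dvd_card_of_normal_of_isPreprimitive fun e => by
    have := (commutator_eq_bot_iff G).1 e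
    exact hp.out.one_lt.ne (χ.charDegree_eq_one_of_isMulCommutative.symm.trans h1)
  have h4 : ¬ p ∣ lam.ker.index := fun e => h.not_dvd_index (e.trans (index_dvd_of_le
    ((h.le_of_dvd h3).trans (commutator_le_ker_linear lam))))
  have h5 := χ.isCharacter.detChar_linear_mul (isCharacter_linear lam) (by simp)
  rw [← IrrCharacter.linear_smul_val, h2 (lam • χ) (by simpa using h1), h1] at h5
  refine hl (MonoidHom.ext fun g => (pow_eq_one_iff_of_coprime
    (hp.out.coprime_iff_not_dvd.2 h4)).1 ⟨Units.ext ?_, ?_⟩)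
  · simpa [detChar_ne_zero] using congrFun h5 g
  · rw [← map_pow]; exact pow_index_mem lam.ker g

end Cfsg
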